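import Mathlib

set_option autoImplicit false

namespace Cfsg.Agent.Helper19.AbSelfDual

universe u v w x

theorem exists_mul_eq_one_of_finite {R : Type*} [Ring R] [Finite R]
    (hnz : ∀ a b : R, a * b = 0 → a = 0 ∨ b = 0) (a : R) (ha : a ≠ 0) : ∃ b : R, a * b = 1 := by
  have hinj : Function.Injective (fun b : R => a * b) := by
    intro b c hbc
    have h0 : a * (b - c) = 0 := by rw [mul_sub]; exact sub_eq_zero.mpr hbc
    rcases hnz _ _ h0 with h | h
    · exact absurd h ha
    · exact sub_eq_zero.mp h
  exact Finite.injective_iff_surjective.mp hinj 1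

open Classical in
/-- A finite commutative ring without zero divisors is a field (keeping the ring structure). -/
@[reducible] noncomputable def fieldOfFinite (R : Type*) [inst : Ring R] [Finite R]
    (hcomm : ∀ a b : R, a * b = b * a) (hnz : ∀ a b : R, a * b = 0 → a = 0 ∨ b = 0)
    (h01 : (0 : R) ≠ 1) : Field R :=
  { inst with
    mul_comm := hcomm
    inv := fun a => if h : a = 0 then 0 else Classical.choose (exists_mul_eq_one_of_finite hnz a h)
    exists_pair_ne := ⟨0, 1, h01⟩
    mul_inv_cancel := fun a ha => by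
      show a * (if h : a = 0 then 0 else
        Classical.choose (exists_mul_eq_one_of_finite hnz a h)) = 1
      rw [dif_neg ha]
      exact Classical.choose_spec (exists_mul_eq_one_of_finite hnz a ha)
    inv_zero := dif_pos rfl
    nnqsmul := _
    nnqsmul_def := fun _ _ => rfl
    qsmul := _
    qsmul_def := fun _ _ => rfl }

section core

variable {F : Type u} [Field F] [Fintype F] {H : Type v} [CommGroup H] [Finite H]
  {V : Type w} [AddCommGroup V] [Module F V] [FiniteDimensional F V]

theorem frob_pow_apply {K : Type x} [Field K] [Finite K] [Algebra F K] (k : ℕ) (a : K) :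
    (FiniteField.frobeniusAlgEquivOfAlgebraic F K ^ k) a = a ^ (Fintype.card F ^ k) := by
  rw [AlgEquiv.coe_pow, FiniteField.coe_frobeniusAlgEquivOfAlgebraic_iterate]

/-- Evaluation at `v₀` as a linear equivalence. -/
noncomputable def evEquiv {K : Type x} (instK : Field K) (algK : Algebra F K)
    (ι : K → Module.End F V)
    (hι_mul : ∀ a b, ι (a * b) = ι a * ι b) (hι_add : ∀ a b, ι (a + b) = ι a + ι b)
    (hι_alg : ∀ c : F, ι (algebraMap F K c) = c • (1 : Module.End F V))
    (v₀ : V) (hbij : Function.Bijective (fun a : K => ι a v₀)) : K ≃ₗ[F] V :=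
  LinearEquiv.ofBijective
    { toFun := fun a => ι a v₀
      map_add' := fun a b => by rw [hι_add]; rfl
      map_smul' := fun c a => by
        rw [Algebra.smul_def, hι_mul, hι_alg]; simp } hbij

theorem core (p : ℕ) [Fact p.Prime] [CharP F p]
    (ρ : Representation F H V) (hfaith : Function.Injective ρ)
    {K : Type x} (instK : Field K) (finK : Finite K) (algK : Algebra F K)
    (ι : K → Module.End F V)
    (hι_mul : ∀ a b, ι (a * b) = ι a * ι b) (hι_add : ∀ a b, ι (a + b) = ι a + ι b)
    (hι_alg : ∀ c : F, ι (algebraMap F K c) = c • (1 : Module.End F V))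
    (χ : H →* K) (hχ : ∀ h, ι (χ h) = ρ h)
    (v₀ : V) (hbij : Function.Bijective (fun a : K => ι a v₀))
    (hgen : ∀ P : K → Prop, (∀ h, P (χ h)) → (∀ c, P (algebraMap F K c)) →
      (∀ a b, P a → P b → P (a + b)) → (∀ a b, P a → P b → P (a * b)) → ∀ a, P a)
    (hn : 2 ≤ Module.finrank F V) :
    ((∃ B : LinearMap.BilinForm F V, B.Nondegenerate ∧
        ∀ (h : H) (x y : V), B (ρ h x) (ρ h y) = B x y) ↔
      (Even (Module.finrank F V) ∧
        Nat.card H ∣ Fintype.card F ^ (Module.finrank F V / 2) + 1)) := by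
  obtain ⟨e, he⟩ : ∃ e : K ≃ₗ[F] V, ∀ a, e a = ι a v₀ :=
    ⟨evEquiv instK algK ι hι_mul hι_add hι_alg v₀ hbij, fun a => rfl⟩
  have hfr : Module.finrank F K = Module.finrank F V := e.finrank_eq
  have hcard : Nat.card K = Fintype.card F ^ Module.finrank F V := by
    rw [← hfr, Module.natCard_eq_pow_finrank (K := F) (V := K), Nat.card_eq_fintype_card]
  have hL0 : ∀ x : K, x ^ (Fintype.card F ^ Module.finrank F V) = x := by
    intro x
    let _ := Fintype.ofFinite K
    have h0 := FiniteField.pow_card x
    rwa [← Nat.card_eq_fintype_card, hcard] at h0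
  have hL0' : ∀ (q : ℕ) (x : K), x ^ (Fintype.card F ^ (Module.finrank F V * q)) = x := by
    intro q x
    induction q with
    | zero => simp
    | succ q ih => rw [Nat.mul_succ, pow_add, pow_mul, ih, hL0]
  have hL1 : ∀ k : ℕ, 1 ≤ k → (∀ h, χ h ^ (Fintype.card F ^ k) = χ h) →
      Module.finrank F V ≤ k := by
    intro k hk hfix
    have hall : ∀ a : K, a ^ (Fintype.card F ^ k) = a := by
      apply hgen (fun a => a ^ (Fintype.card F ^ k) = a)
      · exact hfix
      · intro c
        rw [← map_pow, FiniteField.pow_card_pow]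
      · intro a b ha hb
        have h0 := map_add (FiniteField.frobeniusAlgEquivOfAlgebraic F K ^ k) a b
        rw [frob_pow_apply, frob_pow_apply, frob_pow_apply] at h0
        rw [h0, ha, hb]
      · intro a b ha hb
        rw [mul_pow, ha, hb]
    obtain ⟨g, hg⟩ := IsCyclic.exists_generator (α := Kˣ)
    have hord : orderOf g = Fintype.card F ^ Module.finrank F V - 1 := by
      rw [orderOf_eq_card_of_forall_mem_zpowers hg, Nat.card_units, hcard]
    have h1 : (g : K) ^ (Fintype.card F ^ k) = g := hall g
    have hpos : 1 ≤ Fintype.card F ^ k := Nat.one_le_pow _ _ Fintype.card_pos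
    have h2 : g ^ (Fintype.card F ^ k - 1) = 1 := by
      apply Units.ext
      rw [Units.val_pow_eq_pow_val, Units.val_one]
      have h3 : (g : K) ^ (Fintype.card F ^ k - 1) * (g : K) = (g : K) := by
        rw [← pow_succ, Nat.sub_add_cancel hpos, h1]
      exact mul_right_cancel₀ g.ne_zero (by rw [h3, one_mul])
    have hdvd : Fintype.card F ^ Module.finrank F V - 1 ∣ Fintype.card F ^ k - 1 := by
      rw [← hord]; exact orderOf_dvd_of_pow_eq_one h2
    have hr : 1 < Fintype.card F := Fintype.one_lt_card
    have hlt : 1 < Fintype.card F ^ k := Nat.one_lt_pow (by omega) hr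
    have hle : Fintype.card F ^ Module.finrank F V - 1 ≤ Fintype.card F ^ k - 1 :=
      Nat.le_of_dvd (by omega) hdvd
    have hle' : Fintype.card F ^ Module.finrank F V ≤ Fintype.card F ^ k := by
      have h5 := Nat.one_le_pow (Module.finrank F V) _ (Fintype.card_pos (α := F))
      omega
    exact (Nat.pow_le_pow_iff_right hr).mp hle'
  have hχinj : Function.Injective χ := by
    intro h h' hh
    apply hfaith
    rw [← hχ, ← hχ, hh]
  have : IsCyclic H := isCyclic_of_subgroup_isDomain χ hχinj
  have hχne : ∀ h, χ h ≠ 0 := fun h =>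
    left_ne_zero_of_mul_eq_one (b := χ h⁻¹) (by rw [← map_mul, mul_inv_cancel, map_one])
  have hnpos : 0 < Module.finrank F V := by omega
  constructor
  · rintro ⟨B, hBnd, hBinv⟩
    have hadj_χ : ∀ (h : H) (u v : V), B (ι (χ h⁻¹) u) v = B u (ι (χ h) v) := by
      intro h u v
      rw [hχ, hχ]
      have h1 : ρ h (ρ h⁻¹ u) = u := by
        rw [← Module.End.mul_apply, ← map_mul, mul_inv_cancel, map_one, Module.End.one_apply]
      rw [← hBinv h (ρ h⁻¹ u) v, h1]
    have hQ : ∀ a : K, ∃ b : K, ∀ u v, B (ι b u) v = B u (ι a v) := by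
      apply hgen (fun a => ∃ b : K, ∀ u v, B (ι b u) v = B u (ι a v))
      · intro h
        exact ⟨χ h⁻¹, hadj_χ h⟩
      · intro c
        refine ⟨algebraMap F K c, fun u v => ?_⟩
        rw [hι_alg]
        simp
      · rintro a a' ⟨b, hb⟩ ⟨b', hb'⟩
        refine ⟨b + b', fun u v => ?_⟩
        simp only [hι_add, LinearMap.add_apply, map_add, hb, hb']
      · rintro a a' ⟨b, hb⟩ ⟨b', hb'⟩
        refine ⟨b * b', fun u v => ?_⟩
        rw [hι_mul, Module.End.mul_apply, hb, hb', ← Module.End.mul_apply, ← hι_mul, mul_comm a' a]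
    choose τ hτ using hQ
    have huniq : ∀ b b' : K, (∀ u v, B (ι b u) v = B (ι b' u) v) → b = b' := by
      intro b b' hbb
      apply hbij.1
      show ι b v₀ = ι b' v₀
      have h0 := hBnd.1 (ι b v₀ - ι b' v₀)
        (fun v => by rw [map_sub, LinearMap.sub_apply, hbb, sub_self])
      exact sub_eq_zero.mp h0
    have hτ_eq : ∀ a b : K, (∀ u v, B (ι b u) v = B u (ι a v)) → τ a = b := by
      intro a b hb
      exact huniq _ _ (fun u v => by rw [hτ, hb])
    have hτ_add : ∀ a a', τ (a + a') = τ a + τ a' := fun a a' => hτ_eq _ _ (fun u v => by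
      simp only [hι_add, LinearMap.add_apply, map_add, hτ])
    have hτ_mul : ∀ a a', τ (a * a') = τ a * τ a' := fun a a' => hτ_eq _ _ (fun u v => by
      rw [hι_mul, Module.End.mul_apply, hτ, hτ, ← Module.End.mul_apply, ← hι_mul, mul_comm a' a])
    have hτ_alg : ∀ c : F, τ (algebraMap F K c) = algebraMap F K c := fun c =>
      hτ_eq _ _ (fun u v => by rw [hι_alg]; simp)
    let τ' : K →ₐ[F] K :=
      { toFun := τ
        map_one' := by rw [← map_one (algebraMap F K), hτ_alg]
        map_mul' := hτ_mul
        map_zero' := by rw [← map_zero (algebraMap F K), hτ_alg]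
        map_add' := hτ_add
        commutes' := hτ_alg }
    have hτ'bij : Function.Bijective τ' := by
      have hinj : Function.Injective τ' := τ'.toRingHom.injective
      exact ⟨hinj, Finite.injective_iff_surjective.mp hinj⟩
    obtain ⟨i, hi⟩ :=
      FiniteField.exists_forall_apply_eq_pow F p K (AlgEquiv.ofBijective τ' hτ'bij)
    have hi' : ∀ x : K, τ x = x ^ (Fintype.card F ^ i) := by
      intro x
      have h0 := hi x
      rw [Nat.card_eq_fintype_card] at h0
      exact h0
    have hj0 : ∀ x : K, τ x = x ^ (Fintype.card F ^ (i % Module.finrank F V)) := by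
      intro x
      have hdm := Nat.div_add_mod i (Module.finrank F V)
      calc τ x = x ^ (Fintype.card F ^ i) := hi' x
        _ = x ^ (Fintype.card F ^ (Module.finrank F V * (i / Module.finrank F V)
              + i % Module.finrank F V)) := by rw [hdm]
        _ = x ^ (Fintype.card F ^ (i % Module.finrank F V)) := by
              rw [pow_add, pow_mul, hL0']
    obtain ⟨j, hjlt, hj⟩ : ∃ j, j < Module.finrank F V ∧
        ∀ x : K, τ x = x ^ (Fintype.card F ^ j) :=
      ⟨i % Module.finrank F V, Nat.mod_lt _ hnpos, hj0⟩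
    have hτχ : ∀ h, τ (χ h) = (χ h)⁻¹ := by
      intro h
      rw [← map_inv]
      exact hτ_eq _ _ (hadj_χ h)
    have hinvpow : ∀ h, (χ h)⁻¹ = χ h ^ (Fintype.card F ^ j) := fun h => by rw [← hτχ, hj]
    have hpow1 : ∀ h : H, h ^ (Fintype.card F ^ j + 1) = 1 := by
      intro h
      apply hχinj
      rw [map_pow, map_one, pow_succ, ← hinvpow, inv_mul_cancel₀ (hχne h)]
    have hsq : ∀ h, χ h ^ (Fintype.card F ^ (j + j)) = χ h := by
      intro h
      rw [pow_add, pow_mul, ← hinvpow, inv_pow, ← hinvpow, inv_inv]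
    have hjne : j ≠ 0 := by
      rintro rfl
      have h1 : ∀ h, χ h ^ (Fintype.card F ^ 1) = χ h := by
        intro h
        have h2 : χ h * χ h = 1 := by
          have h3 := hinvpow h
          rw [pow_zero, pow_one] at h3
          calc χ h * χ h = χ h * (χ h)⁻¹ := by rw [h3]
            _ = 1 := mul_inv_cancel₀ (hχne h)
        rcases mul_self_eq_one_iff.mp h2 with h4 | h4
        · rw [h4, one_pow]
        · rw [h4, show (-1 : K) = algebraMap F K (-1) by simp, ← map_pow,
            FiniteField.pow_card_pow]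
      have h5 := hL1 1 le_rfl h1
      omega
    have hn_le : Module.finrank F V ≤ j + j := hL1 (j + j) (by omega) hsq
    have hn_eq : Module.finrank F V = j + j := by
      by_contra hne
      have hlt : Module.finrank F V < j + j := lt_of_le_of_ne hn_le hne
      have h3 : ∀ h, χ h ^ (Fintype.card F ^ (j + j - Module.finrank F V)) = χ h := by
        intro h
        have h4 := hsq h
        have h5 : j + j = Module.finrank F V * 1 + (j + j - Module.finrank F V) := by omega
        rw [h5, pow_add, pow_mul, hL0'] at h4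
        exact h4
      have h6 := hL1 _ (by omega) h3
      omega
    refine ⟨⟨j, hn_eq⟩, ?_⟩
    have hhalf : Module.finrank F V / 2 = j := by omega
    rw [hhalf, ← IsCyclic.exponent_eq_card]
    exact Monoid.exponent_dvd_of_forall_pow_eq_one hpow1
  · rintro ⟨⟨m, hm⟩, hdvd⟩
    have hhalf : Module.finrank F V / 2 = m := by omega
    rw [hhalf] at hdvd
    obtain ⟨σ, hσ⟩ : ∃ σ : K ≃ₐ[F] K, ∀ a : K, σ a = a ^ (Fintype.card F ^ m) :=
      ⟨FiniteField.frobeniusAlgEquivOfAlgebraic F K ^ m, fun a => frob_pow_apply m a⟩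
    obtain ⟨B, hB⟩ : ∃ B : LinearMap.BilinForm F V,
        ∀ x y, B x y = Algebra.trace F K (e.symm x * σ (e.symm y)) :=
      ⟨(Algebra.traceForm F K).compl₁₂ (e.symm : V →ₗ[F] K)
        ((σ.toLinearMap).comp (e.symm : V →ₗ[F] K)), fun x y => rfl⟩
    have hnd := traceForm_nondegenerate F K
    refine ⟨B, ⟨?_, ?_⟩, ?_⟩
    · intro x hx
      have h0 : e.symm x = 0 := hnd.1 (e.symm x) (fun z => by
        have h1 := hx (e (σ.symm z))
        rw [hB] at h1
        rw [Algebra.traceForm_apply]
        simpa using h1)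
      simpa using h0
    · intro y hy
      have h0 : σ (e.symm y) = 0 := hnd.2 (σ (e.symm y)) (fun z => by
        have h1 := hy (e z)
        rw [hB] at h1
        rw [Algebra.traceForm_apply]
        simpa using h1)
      simpa using h0
    · intro h x y
      have hes : ∀ z : V, e.symm (ρ h z) = χ h * e.symm z := by
        intro z
        apply e.injective
        rw [LinearEquiv.apply_symm_apply, he, hι_mul, Module.End.mul_apply, hχ, ← he,
          LinearEquiv.apply_symm_apply]
      have hone : χ h * χ h ^ (Fintype.card F ^ m) = 1 := by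
        rw [← pow_succ', ← map_pow]
        have h0 : h ^ (Fintype.card F ^ m + 1) = 1 :=
          orderOf_dvd_iff_pow_eq_one.mp ((orderOf_dvd_natCard h).trans hdvd)
        rw [h0, map_one]
      rw [hB, hB, hes, hes, map_mul σ, hσ (χ h), mul_mul_mul_comm, hone, one_mul]

end core

section assemble

variable {F : Type u} [Field F] [Fintype F] {H : Type v} [CommGroup H] [Finite H]
  {V : Type w} [AddCommGroup V] [Module F V] [FiniteDimensional F V]

theorem part_one (ρ : Representation F H V) (hfaith : Function.Injective ρ)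
    (h1 : Module.finrank F V = 1)
    (B : LinearMap.BilinForm F V) (hB : B.Nondegenerate)
    (hinv : ∀ h : H, ∀ x y : V, B (ρ h x) (ρ h y) = B x y) : Nat.card H ≤ 2 := by
  classical
  obtain ⟨v₀, hv₀⟩ : ∃ v₀ : V, v₀ ≠ 0 := Module.finrank_pos_iff_exists_ne_zero.mp (show 0 < Module.finrank F V by omega)
  have hspan : ∀ w : V, ∃ c : F, c • v₀ = w := (finrank_eq_one_iff_of_nonzero' v₀ hv₀).mp h1
  have hB0 : B v₀ v₀ ≠ 0 := by
    intro h0
    apply hv₀
    apply hB.1
    intro y
    obtain ⟨c, rfl⟩ := hspan y
    rw [map_smul, h0, smul_zero]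
  have hpm : ∀ h : H, ρ h v₀ = v₀ ∨ ρ h v₀ = -v₀ := by
    intro h
    obtain ⟨c, hc⟩ := hspan (ρ h v₀)
    have h2 := hinv h v₀ v₀
    rw [← hc] at h2
    simp only [map_smul, LinearMap.smul_apply, smul_eq_mul] at h2
    rw [← mul_assoc] at h2
    have hcc : c * c = 1 := by
      have h3 : c * c * B v₀ v₀ = 1 * B v₀ v₀ := by rw [h2, one_mul]
      exact mul_right_cancel₀ hB0 h3
    rcases mul_self_eq_one_iff.mp hcc with h4 | h4
    · left; rw [← hc, h4, one_smul]
    · right; rw [← hc, h4, neg_smul, one_smul]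
  have hinj : Function.Injective (fun h : H => decide (ρ h v₀ = v₀)) := by
    intro h h' hh
    have hiff : ρ h v₀ = v₀ ↔ ρ h' v₀ = v₀ := decide_eq_decide.mp hh
    apply hfaith
    have hv : ρ h v₀ = ρ h' v₀ := by
      rcases hpm h with a | a <;> rcases hpm h' with b | b
      · rw [a, b]
      · rw [a, hiff.mp a]
      · rw [hiff.mpr b, b]
      · rw [a, b]
    apply LinearMap.ext
    intro w
    obtain ⟨c, rfl⟩ := hspan w
    rw [map_smul, map_smul, hv]
  calc Nat.card H ≤ Nat.card Bool := Nat.card_le_card_of_injective _ hinj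
    _ = 2 := by simp

theorem part_two (p : ℕ) [Fact p.Prime] [CharP F p]
    (ρ : Representation F H V) (hfaith : Function.Injective ρ)
    (hirr : ∀ U : Submodule F V, (∀ h : H, ∀ u ∈ U, ρ h u ∈ U) → U = ⊥ ∨ U = ⊤)
    (hn : 2 ≤ Module.finrank F V) :
    ((∃ B : LinearMap.BilinForm F V, B.Nondegenerate ∧
        ∀ (h : H) (x y : V), B (ρ h x) (ρ h y) = B x y) ↔
      (Even (Module.finrank F V) ∧
        Nat.card H ∣ Fintype.card F ^ (Module.finrank F V / 2) + 1)) := by
  classical
  obtain ⟨v₀, hv₀⟩ : ∃ v₀ : V, v₀ ≠ 0 := Module.finrank_pos_iff_exists_ne_zero.mp (show 0 < Module.finrank F V by omega)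
  have hcomm : ∀ a ∈ Set.range ρ, ∀ b ∈ Set.range ρ, a * b = b * a := by
    rintro _ ⟨h, rfl⟩ _ ⟨h', rfl⟩
    rw [← map_mul, ← map_mul, mul_comm]
  obtain ⟨E, hE⟩ : ∃ E : Subalgebra F (Module.End F V), E = Algebra.adjoin F (Set.range ρ) :=
    ⟨_, rfl⟩
  have hρE : ∀ h : H, ρ h ∈ E := fun h => by rw [hE]; exact Algebra.subset_adjoin ⟨h, rfl⟩
  have hEcomm : ∀ a b : E, a * b = b * a := by
    subst hE
    intro a b
    exact (Algebra.isMulCommutative_adjoin F hcomm).is_comm.comm a b
  have hker : ∀ a : E, a ≠ 0 → ∀ v : V, (a : Module.End F V) v = 0 → v = 0 := by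
    intro a ha v hv
    have hinvar : ∀ h : H, ∀ u ∈ LinearMap.ker (a : Module.End F V),
        ρ h u ∈ LinearMap.ker (a : Module.End F V) := by
      intro h u hu
      rw [LinearMap.mem_ker] at hu ⊢
      have hc : (a : Module.End F V) * ρ h = ρ h * (a : Module.End F V) :=
        congrArg Subtype.val (hEcomm a ⟨ρ h, hρE h⟩)
      rw [← Module.End.mul_apply, hc, Module.End.mul_apply, hu, map_zero]
    rcases hirr _ hinvar with hbot | htop
    · have h0 : v ∈ LinearMap.ker (a : Module.End F V) := hv
      rw [hbot] at h0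
      exact (Submodule.mem_bot F).mp h0
    · exfalso
      apply ha
      apply Subtype.ext
      apply LinearMap.ext
      intro w
      have h0 : w ∈ LinearMap.ker (a : Module.End F V) := by rw [htop]; trivial
      exact h0
  have : Finite (Module.End F V) := Module.finite_of_finite F
  have hfinE : Finite E := inferInstance
  have hnz : ∀ a b : E, a * b = 0 → a = 0 ∨ b = 0 := by
    intro a b hab
    by_contra hcon
    push Not at hcon
    obtain ⟨ha, hb⟩ := hcon
    have hex : ∃ v, (b : Module.End F V) v ≠ 0 := by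
      by_contra hall
      push Not at hall
      exact hb (Subtype.ext (LinearMap.ext hall))
    obtain ⟨v, hv⟩ := hex
    apply hv
    apply hker a ha
    have h0 := congrArg (fun x : E => (x : Module.End F V) v) hab
    exact h0
  have h01 : (0 : E) ≠ 1 := by
    intro h
    have h0 := congrArg (fun x : E => (x : Module.End F V) v₀) h
    exact hv₀ h0.symm
  have hbij : Function.Bijective (fun a : E => (a : Module.End F V) v₀) := by
    constructor
    · intro a b hab
      by_contra hne
      have h0 : ((a - b : E) : Module.End F V) v₀ = 0 := by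
        show (a : Module.End F V) v₀ - (b : Module.End F V) v₀ = 0
        exact sub_eq_zero.mpr hab
      exact hv₀ (hker (a - b) (sub_ne_zero.mpr hne) v₀ h0)
    · let U : Submodule F V :=
        { carrier := {w | ∃ a : E, (a : Module.End F V) v₀ = w}
          add_mem' := by rintro _ _ ⟨a, rfl⟩ ⟨b, rfl⟩; exact ⟨a + b, rfl⟩
          zero_mem' := ⟨0, rfl⟩
          smul_mem' := by rintro c _ ⟨a, rfl⟩; exact ⟨c • a, rfl⟩ }
      have hUinv : ∀ h : H, ∀ u ∈ U, ρ h u ∈ U := by
        rintro h _ ⟨a, rfl⟩
        exact ⟨⟨ρ h, hρE h⟩ * a, rfl⟩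
      rcases hirr U hUinv with hbot | htop
      · exfalso
        apply hv₀
        have h0 : v₀ ∈ U := ⟨1, rfl⟩
        rw [hbot] at h0
        exact (Submodule.mem_bot F).mp h0
      · intro w
        have h0 : w ∈ U := by rw [htop]; trivial
        exact h0
  exact core p ρ hfaith (K := E) (fieldOfFinite E hEcomm hnz h01) hfinE (Subalgebra.algebra E)
    (fun a => (a : Module.End F V)) (fun a b => rfl) (fun a b => rfl)
    (fun c => (Algebra.algebraMap_eq_smul_one c))
    { toFun := fun h => ⟨ρ h, hρE h⟩
      map_one' := Subtype.ext (map_one ρ)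
      map_mul' := fun a b => Subtype.ext (map_mul ρ a b) }
    (fun h => rfl) v₀ hbij
    (fun P hχP halgP haddP hmulP a => by
      subst hE
      obtain ⟨x, hx⟩ := a
      refine Algebra.adjoin_induction (p := fun x hx => P ⟨x, hx⟩) ?_ ?_ ?_ ?_ hx
      · rintro _ ⟨h, rfl⟩; exact hχP h
      · intro c; exact halgP c
      · intro x y hx hy px py; exact haddP _ _ px py
      · intro x y hx hy px py; exact hmulP _ _ px py) hn

end assemble

end Cfsg.Agent.Helper19.AbSelfDual
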