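import Mathlib

/-!
Decomposition of a self-dual representation (S4966), part 1:
asymmetry operator, Maschke complements, projections, and the case of odd characteristic.
-/

set_option autoImplicit false

namespace Cfsg.Agent.Helper19

variable {F : Type*} [Field F] {G : Type*} [Group G] {V : Type*} [AddCommGroup V] [Module F V]

theorem bd_rho_inv (ρ : Representation F G V) (g : G) (x : V) : ρ g (ρ g⁻¹ x) = x := by
  rw [← Module.End.mul_apply, ← map_mul, mul_inv_cancel, map_one, Module.End.one_apply]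

theorem bd_rho_inv' (ρ : Representation F G V) (g : G) (x : V) : ρ g⁻¹ (ρ g x) = x := by
  rw [← Module.End.mul_apply, ← map_mul, inv_mul_cancel, map_one, Module.End.one_apply]

/-- The asymmetry operator of a nondegenerate bilinear form. -/
theorem bd_exists_asym [FiniteDimensional F V] (B : LinearMap.BilinForm F V)
    (hB : B.Nondegenerate) : ∃ T : V →ₗ[F] V, ∀ x y : V, B x (T y) = B y x := by
  have hBf : B.flip.Nondegenerate := hB.flip
  refine ⟨(LinearMap.BilinForm.toDual B.flip hBf).symm.toLinearMap ∘ₗ B, fun x y => ?_⟩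
  have h1 : B.flip ((LinearMap.BilinForm.toDual B.flip hBf).symm (B y)) x = B y x :=
    LinearMap.BilinForm.apply_toDual_symm_apply (B y) x
  rw [LinearMap.BilinForm.flip_apply] at h1
  exact h1

theorem bd_asym_iso (B : LinearMap.BilinForm F V) (T : V →ₗ[F] V)
    (hT : ∀ x y : V, B x (T y) = B y x) (x y : V) : B (T x) (T y) = B x y := by
  rw [hT (T x) y, hT y x]

theorem bd_asym_comm (ρ : Representation F G V) (B : LinearMap.BilinForm F V)
    (hB : B.Nondegenerate) (hBinv : ∀ g : G, ∀ x y : V, B (ρ g x) (ρ g y) = B x y)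
    (T : V →ₗ[F] V) (hT : ∀ x y : V, B x (T y) = B y x) (g : G) (y : V) :
    T (ρ g y) = ρ g (T y) := by
  have h : T (ρ g y) - ρ g (T y) = 0 := by
    apply hB.2
    intro x
    rw [map_sub, hT x (ρ g y)]
    have h1 : B x (ρ g (T y)) = B (ρ g⁻¹ x) (T y) := by
      conv_lhs => rw [← bd_rho_inv ρ g x]
      rw [hBinv]
    rw [h1, hT, ← hBinv g y (ρ g⁻¹ x), bd_rho_inv, sub_self]
  exact sub_eq_zero.mp h

theorem bd_asym_inj (B : LinearMap.BilinForm F V) (hB : B.Nondegenerate) (T : V →ₗ[F] V)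
    (hT : ∀ x y : V, B x (T y) = B y x) : Function.Injective T := by
  rw [← LinearMap.ker_eq_bot, LinearMap.ker_eq_bot']
  intro y hy
  apply hB.1
  intro x
  rw [← hT x y, hy, map_zero]

/-- The projection onto `P` along a complement `Q`. -/
theorem bd_proj {P Q : Submodule F V} (h : IsCompl P Q) :
    ∃ p : V →ₗ[F] V, (∀ v, p v ∈ P) ∧ (∀ v, v - p v ∈ Q) ∧ (∀ v ∈ P, p v = v) ∧
      (∀ v ∈ Q, p v = 0) := by
  have key : ∀ v : V, ∃ a ∈ P, ∃ b ∈ Q, a + b = v ∧
      LinearMap.ofIsCompl h P.subtype 0 v = a := by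
    intro v
    obtain ⟨a, b, hab, -⟩ := Submodule.existsUnique_add_of_isCompl h v
    refine ⟨a, a.2, b, b.2, hab, ?_⟩
    rw [← hab, map_add, LinearMap.ofIsCompl_apply_left, LinearMap.ofIsCompl_apply_right]
    simp
  refine ⟨LinearMap.ofIsCompl h P.subtype 0, ?_, ?_, ?_, ?_⟩
  · intro v
    obtain ⟨a, ha, b, hb, hab, hp⟩ := key v
    rw [hp]
    exact ha
  · intro v
    obtain ⟨a, ha, b, hb, hab, hp⟩ := key v
    rw [hp, ← hab, add_sub_cancel_left]
    exact hb
  · intro v hv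
    have := LinearMap.ofIsCompl_apply_left h (φ := P.subtype) (ψ := (0 : Q →ₗ[F] V)) ⟨v, hv⟩
    simpa using this
  · intro v hv
    have := LinearMap.ofIsCompl_apply_right h (φ := P.subtype) (ψ := (0 : Q →ₗ[F] V)) ⟨v, hv⟩
    simpa using this

/-- A projection along an invariant complement onto an invariant subspace is equivariant. -/
theorem bd_proj_equiv (ρ : Representation F G V) {P Q : Submodule F V}
    (hP : ∀ g : G, ∀ v ∈ P, ρ g v ∈ P) (hQ : ∀ g : G, ∀ v ∈ Q, ρ g v ∈ Q)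
    (p : V →ₗ[F] V) (hp1 : ∀ v, p v ∈ P) (hp2 : ∀ v, v - p v ∈ Q) (hp3 : ∀ v ∈ P, p v = v)
    (hp4 : ∀ v ∈ Q, p v = 0) (g : G) (v : V) : p (ρ g v) = ρ g (p v) := by
  have h : ρ g v = ρ g (p v) + ρ g (v - p v) := by rw [← map_add, add_sub_cancel]
  calc p (ρ g v) = p (ρ g (p v) + ρ g (v - p v)) := by rw [← h]
    _ = ρ g (p v) := by
      rw [map_add, hp3 _ (hP g _ (hp1 v)), hp4 _ (hQ g _ (hp2 v)), add_zero]

/-- Maschke's theorem for representations. -/
theorem bd_maschke [Finite G] (hG : (Nat.card G : F) ≠ 0) (ρ : Representation F G V)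
    (P : Submodule F V) (hP : ∀ g : G, ∀ v ∈ P, ρ g v ∈ P) :
    ∃ Q : Submodule F V, (∀ g : G, ∀ v ∈ Q, ρ g v ∈ Q) ∧ IsCompl P Q := by
  classical
  cases nonempty_fintype G
  obtain ⟨C, hC⟩ := Submodule.exists_isCompl P
  obtain ⟨p₀, hp1, -, hp3, -⟩ := bd_proj hC
  obtain ⟨π, hπ⟩ : ∃ π : V →ₗ[F] V, π = (Nat.card G : F)⁻¹ • ∑ g : G, ρ g ∘ₗ p₀ ∘ₗ ρ g⁻¹ :=
    ⟨_, rfl⟩
  have hπv : ∀ v, π v = (Nat.card G : F)⁻¹ • ∑ g : G, ρ g (p₀ (ρ g⁻¹ v)) := by
    intro v
    rw [hπ]
    simp [LinearMap.sum_apply]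
  have ha : ∀ v, π v ∈ P := by
    intro v
    rw [hπv]
    exact P.smul_mem _ (P.sum_mem fun g _ => hP g _ (hp1 _))
  have hb : ∀ v ∈ P, π v = v := by
    intro v hv
    rw [hπv]
    have h1 : ∀ g : G, ρ g (p₀ (ρ g⁻¹ v)) = v := by
      intro g
      rw [hp3 _ (hP g⁻¹ v hv), bd_rho_inv]
    rw [Finset.sum_congr rfl fun g _ => h1 g, Finset.sum_const, Finset.card_univ,
      ← Nat.card_eq_fintype_card, ← Nat.cast_smul_eq_nsmul F, smul_smul, inv_mul_cancel₀ hG,
      one_smul]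
  have hc : ∀ (h : G) (v : V), π (ρ h v) = ρ h (π v) := by
    intro h v
    rw [hπv, hπv, map_smul, map_sum]
    congr 1
    rw [← Equiv.sum_comp (Equiv.mulLeft h)]
    refine Finset.sum_congr rfl fun g _ => ?_
    simp only [Equiv.coe_mulLeft, mul_inv_rev, map_mul, Module.End.mul_apply, bd_rho_inv']
  refine ⟨LinearMap.ker π, ?_, ?_⟩
  · intro g v hv
    rw [LinearMap.mem_ker] at hv ⊢
    rw [hc, hv, map_zero]
  · refine ⟨?_, ?_⟩
    · rw [Submodule.disjoint_def]
      intro v hv hv'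
      rw [LinearMap.mem_ker] at hv'
      rw [← hb v hv, hv']
    · rw [Submodule.codisjoint_iff_exists_add_eq]
      intro v
      refine ⟨π v, v - π v, ha v, ?_, by abel⟩
      rw [LinearMap.mem_ker, map_sub, hb _ (ha v), sub_self]

end Cfsg.Agent.Helper19
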