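import Mathlib
import Cfsg.Agent.Helper19.BilDecomp

/-!
Decomposition of a self-dual representation (S4966), part 2: odd characteristic.
-/

set_option autoImplicit false

namespace Cfsg.Agent.Helper19

variable {F : Type*} [Field F] {G : Type*} [Group G] {V : Type*} [AddCommGroup V] [Module F V]

set_option maxHeartbeats 1000000 in
theorem bd_odd [FiniteDimensional F V] (h2 : (2 : F) ≠ 0) (ρ : Representation F G V)
    (B : LinearMap.BilinForm F V) (hB : B.Nondegenerate)
    (hBinv : ∀ g : G, ∀ x y : V, B (ρ g x) (ρ g y) = B x y) :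
    ∃ U W : Submodule F V, IsCompl U W ∧ (∀ g : G, ∀ u ∈ U, ρ g u ∈ U) ∧
      (∀ g : G, ∀ w ∈ W, ρ g w ∈ W) ∧
      (∃ A : LinearMap.BilinForm F V, (∀ x : V, A x x = 0) ∧
        (∀ g : G, ∀ x ∈ U, ∀ y ∈ U, A (ρ g x) (ρ g y) = A x y) ∧
        (∀ x ∈ U, (∀ y ∈ U, A x y = 0) → x = 0)) ∧
      (∃ S : LinearMap.BilinForm F V, (∀ x y : V, S x y = S y x) ∧
        (∀ g : G, ∀ x ∈ W, ∀ y ∈ W, S (ρ g x) (ρ g y) = S x y) ∧
        (∀ x ∈ W, (∀ y ∈ W, S x y = 0) → x = 0)) := by
  obtain ⟨T, hT⟩ := bd_exists_asym B hB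
  have hiso := bd_asym_iso B T hT
  have hcomm := bd_asym_comm ρ B hB hBinv T hT
  have hinj := bd_asym_inj B hB T hT
  have hsurj : Function.Surjective T := LinearMap.injective_iff_surjective.mp hinj
  obtain ⟨N, hNdef⟩ : ∃ N : V →ₗ[F] V, N = T - 1 := ⟨_, rfl⟩
  have hN : ∀ y, N y = T y - y := by
    intro y
    rw [hNdef, LinearMap.sub_apply, Module.End.one_apply]
  have hNT : ∀ y, N (T y) = T (N y) := by
    intro y
    rw [hN, hN, map_sub]
  have hstep : ∀ a b, B a (N b) = -B (N a) (T b) := by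
    intro a b
    rw [hN a, hN b, map_sub, map_sub, LinearMap.sub_apply, hiso, hT]
    ring
  have hNkT : ∀ k y, (N ^ k) (T y) = T ((N ^ k) y) := by
    intro k
    induction k with
    | zero => intro y; simp
    | succ k ih =>
      intro y
      rw [pow_succ, Module.End.mul_apply, Module.End.mul_apply, hNT, ih]
  have hTkN : ∀ k y, (T ^ k) (N y) = N ((T ^ k) y) := by
    intro k
    induction k with
    | zero => intro y; simp
    | succ k ih =>
      intro y
      rw [pow_succ, Module.End.mul_apply, Module.End.mul_apply, ← hNT, ih]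
  have hNkTk : ∀ k j y, (N ^ k) ((T ^ j) y) = (T ^ j) ((N ^ k) y) := by
    intro k j
    induction j with
    | zero => intro y; simp
    | succ j ih =>
      intro y
      rw [pow_succ, Module.End.mul_apply, Module.End.mul_apply, ih, hNkT]
  have hkey : ∀ k x y, B x ((N ^ k) y) = (-1) ^ k * B ((N ^ k) x) ((T ^ k) y) := by
    intro k
    induction k with
    | zero => intro x y; simp
    | succ k ih =>
      intro x y
      have e1 : (N ^ (k + 1)) y = (N ^ k) (N y) := by rw [pow_succ, Module.End.mul_apply]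
      have e2 : (N ^ (k + 1)) x = N ((N ^ k) x) := by rw [pow_succ', Module.End.mul_apply]
      have e3 : (T ^ (k + 1)) y = T ((T ^ k) y) := by rw [pow_succ', Module.End.mul_apply]
      rw [e1, e2, e3, ih, hTkN, hstep]
      ring
  have hTk_inj : ∀ k : ℕ, Function.Injective ⇑(T ^ k) := by
    intro k
    rw [Module.End.coe_pow]
    exact hinj.iterate k
  have hTk_surj : ∀ k : ℕ, Function.Surjective ⇑(T ^ k) := by
    intro k
    rw [Module.End.coe_pow]
    exact hsurj.iterate k
  have hNg : ∀ (g : G) y, N (ρ g y) = ρ g (N y) := by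
    intro g y
    rw [hN, hN, hcomm, map_sub]
  have hNkg : ∀ k (g : G) y, (N ^ k) (ρ g y) = ρ g ((N ^ k) y) := by
    intro k
    induction k with
    | zero => intro g y; simp
    | succ k ih =>
      intro g y
      rw [pow_succ, Module.End.mul_apply, Module.End.mul_apply, hNg, ih]
  obtain ⟨n₀, hn₀⟩ := Filter.eventually_atTop.mp (LinearMap.eventually_isCompl_ker_pow_range_pow N)
  obtain ⟨n, hn1, hcompl⟩ : ∃ n, 1 ≤ n ∧
      IsCompl (LinearMap.ker (N ^ n)) (LinearMap.range (N ^ n)) :=
    ⟨n₀ + 1, Nat.le_add_left 1 n₀, hn₀ (n₀ + 1) (Nat.le_succ n₀)⟩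
  have horth1 : ∀ w, (N ^ n) w = 0 → ∀ z, B w ((N ^ n) z) = 0 := by
    intro w hw z
    rw [hkey, hw, map_zero, LinearMap.zero_apply, mul_zero]
  have horth2 : ∀ z w, (N ^ n) w = 0 → B ((N ^ n) z) w = 0 := by
    intro z w hw
    obtain ⟨y', rfl⟩ := hTk_surj n w
    have h1 : (N ^ n) y' = 0 := by
      apply hTk_inj n
      rw [← hNkTk, hw, map_zero]
    have h3 := hkey n z y'
    rw [h1, map_zero] at h3
    rcases mul_eq_zero.mp h3.symm with h4 | h4
    · exact absurd h4 (pow_ne_zero _ (neg_ne_zero.mpr one_ne_zero))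
    · exact h4
  have hdecomp : ∀ v : V, ∃ w u, (N ^ n) w = 0 ∧ u ∈ LinearMap.range (N ^ n) ∧ w + u = v := by
    intro v
    obtain ⟨w, u, hw, hu, hwu⟩ := Submodule.codisjoint_iff_exists_add_eq.mp hcompl.codisjoint v
    exact ⟨w, u, LinearMap.mem_ker.mp hw, hu, hwu⟩
  have hdisj : ∀ y, (N ^ n) y = 0 → y ∈ LinearMap.range (N ^ n) → y = 0 := by
    intro y hy hy'
    exact Submodule.disjoint_def.mp hcompl.disjoint y (LinearMap.mem_ker.mpr hy) hy'
  have hker1 : ∀ y : V, N y = 0 → (N ^ n) y = 0 := by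
    intro y hy
    obtain ⟨m, rfl⟩ : ∃ m, n = m + 1 := ⟨n - 1, by omega⟩
    rw [pow_succ, Module.End.mul_apply, hy, map_zero]
  -- `N` is onto on the range
  have hNsurj : ∀ u ∈ LinearMap.range (N ^ n), ∃ y ∈ LinearMap.range (N ^ n), N y = u := by
    have hmap : ∀ y ∈ LinearMap.range (N ^ n), N y ∈ LinearMap.range (N ^ n) := by
      rintro y ⟨z, rfl⟩
      refine ⟨N z, ?_⟩
      rw [← Module.End.mul_apply, ← pow_succ, pow_succ', Module.End.mul_apply]
    have hinjr : Function.Injective (N.restrict hmap) := by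
      rw [← LinearMap.ker_eq_bot, LinearMap.ker_eq_bot']
      intro y hy
      have hy0 : N (y : V) = 0 := by
        have := congrArg Subtype.val hy
        simpa [LinearMap.restrict_apply] using this
      have hy1 : (N ^ n) (y : V) = 0 := hker1 _ hy0
      exact Subtype.ext (hdisj _ hy1 y.2)
    have hsurjr := LinearMap.injective_iff_surjective.mp hinjr
    intro u hu
    obtain ⟨y, hy⟩ := hsurjr ⟨u, hu⟩
    refine ⟨y, y.2, ?_⟩
    have := congrArg Subtype.val hy
    simpa [LinearMap.restrict_apply] using this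
  -- `T + 1` is onto on the kernel
  have hPsurj : ∀ w, (N ^ n) w = 0 → ∃ y, (N ^ n) y = 0 ∧ T y + y = w := by
    have hmap : ∀ y ∈ LinearMap.ker (N ^ n), (T + 1) y ∈ LinearMap.ker (N ^ n) := by
      intro y hy
      rw [LinearMap.mem_ker] at hy ⊢
      rw [LinearMap.add_apply, Module.End.one_apply, map_add, hNkT, hy, map_zero, add_zero]
    have hinjr : Function.Injective ((T + 1).restrict hmap) := by
      rw [← LinearMap.ker_eq_bot, LinearMap.ker_eq_bot']
      intro y hy
      have hy0 : T (y : V) + (y : V) = 0 := by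
        have := congrArg Subtype.val hy
        simpa [LinearMap.restrict_apply] using this
      have hy1 : (N ^ n) (y : V) = 0 := LinearMap.mem_ker.mp y.2
      have hNy : N (y : V) = (-2 : F) • (y : V) := by
        rw [hN, eq_neg_of_add_eq_zero_left hy0]
        module
      have hpow : ∀ k, (N ^ k) (y : V) = ((-2 : F)) ^ k • (y : V) := by
        intro k
        induction k with
        | zero => simp
        | succ k ih =>
          rw [pow_succ', Module.End.mul_apply, ih, map_smul, hNy, smul_smul, pow_succ]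
      have h3 := hpow n
      rw [hy1] at h3
      rcases smul_eq_zero.mp h3.symm with h4 | h4
      · exact absurd h4 (pow_ne_zero _ (neg_ne_zero.mpr h2))
      · exact Subtype.ext h4
    have hsurjr := LinearMap.injective_iff_surjective.mp hinjr
    intro w hw
    obtain ⟨y, hy⟩ := hsurjr ⟨w, LinearMap.mem_ker.mpr hw⟩
    refine ⟨y, LinearMap.mem_ker.mp y.2, ?_⟩
    have := congrArg Subtype.val hy
    simpa [LinearMap.restrict_apply] using this
  refine ⟨LinearMap.range (N ^ n), LinearMap.ker (N ^ n), hcompl.symm, ?_, ?_, ?_, ?_⟩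
  · rintro g u ⟨z, rfl⟩
    exact ⟨ρ g z, hNkg n g z⟩
  · intro g w hw
    rw [LinearMap.mem_ker] at hw ⊢
    rw [hNkg, hw, map_zero]
  · refine ⟨B - B.flip, ?_, ?_, ?_⟩
    · intro x
      rw [LinearMap.sub_apply, LinearMap.sub_apply, LinearMap.BilinForm.flip_apply, sub_self]
    · intro g x _ y _
      rw [LinearMap.sub_apply, LinearMap.sub_apply, LinearMap.BilinForm.flip_apply, hBinv, hBinv,
        LinearMap.sub_apply, LinearMap.sub_apply, LinearMap.BilinForm.flip_apply]
    · rintro x ⟨z, rfl⟩ hx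
      apply hB.1
      intro v
      obtain ⟨w, u, hw, hu, rfl⟩ := hdecomp v
      rw [map_add, horth2 z w hw, zero_add]
      obtain ⟨y, hy, rfl⟩ := hNsurj u hu
      have h5 := hx y hy
      rw [LinearMap.sub_apply, LinearMap.sub_apply, LinearMap.BilinForm.flip_apply] at h5
      rw [hN, map_sub, hT]
      rw [sub_eq_zero] at h5
      rw [h5, sub_self]
  · refine ⟨B + B.flip, ?_, ?_, ?_⟩
    · intro x y
      rw [LinearMap.add_apply, LinearMap.add_apply, LinearMap.BilinForm.flip_apply,
        LinearMap.add_apply, LinearMap.add_apply, LinearMap.BilinForm.flip_apply, add_comm]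
    · intro g x _ y _
      rw [LinearMap.add_apply, LinearMap.add_apply, LinearMap.BilinForm.flip_apply, hBinv, hBinv,
        LinearMap.add_apply, LinearMap.add_apply, LinearMap.BilinForm.flip_apply]
    · intro x hx hx'
      rw [LinearMap.mem_ker] at hx
      apply hB.1
      intro v
      obtain ⟨w, u, hw, ⟨z, rfl⟩, rfl⟩ := hdecomp v
      rw [map_add, horth1 x hx z, add_zero]
      obtain ⟨y, hy, rfl⟩ := hPsurj w hw
      have h5 := hx' y (LinearMap.mem_ker.mpr hy)
      rw [LinearMap.add_apply, LinearMap.add_apply, LinearMap.BilinForm.flip_apply] at h5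
      rw [map_add, hT, add_comm]
      exact h5

end Cfsg.Agent.Helper19
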