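import Mathlib
import Cfsg.Agent.Helper19.BilDecomp

/-!
Decomposition of a self-dual representation (S4966), part 3: in characteristic 2 a
self-dual representation of a group of odd order carries an invariant nondegenerate
symmetric form.
-/

set_option autoImplicit false

namespace Cfsg.Agent.Helper19

universe u

/-- The (right) orthogonal of a subspace. -/
theorem bd_perp {F : Type*} [Field F] {M : Type*} [AddCommGroup M] [Module F M]
    (B : LinearMap.BilinForm F M) (E : Submodule F M) :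
    ∃ Ep : Submodule F M, ∀ y, y ∈ Ep ↔ ∀ x ∈ E, B x y = 0 :=
  ⟨{ carrier := {y | ∀ x ∈ E, B x y = 0}
     add_mem' := by
       intro a b ha hb x hx
       rw [map_add, ha x hx, hb x hx, add_zero]
     zero_mem' := by
       intro x _
       rw [map_zero]
     smul_mem' := by
       intro c a ha x hx
       rw [map_smul, ha x hx, smul_zero] }, fun _ => Iff.rfl⟩

theorem bd_perp_inv {F : Type*} [Field F] {G : Type*} [Group G] {M : Type*} [AddCommGroup M]
    [Module F M] (ρ : Representation F G M) (B : LinearMap.BilinForm F M)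
    (hinv : ∀ g : G, ∀ x y : M, B (ρ g x) (ρ g y) = B x y) (E Ep : Submodule F M)
    (hE : ∀ g : G, ∀ v ∈ E, ρ g v ∈ E) (hEp : ∀ y, y ∈ Ep ↔ ∀ x ∈ E, B x y = 0) :
    ∀ g : G, ∀ v ∈ Ep, ρ g v ∈ Ep := by
  intro g v hv
  rw [hEp] at hv ⊢
  intro x hx
  have h1 : B x (ρ g v) = B (ρ g⁻¹ x) v := by
    conv_lhs => rw [← bd_rho_inv ρ g x]
    rw [hinv]
  rw [h1]
  exact hv _ (hE g⁻¹ x hx)

theorem bd_restrict_apply {F : Type*} [Field F] {M : Type*} [AddCommGroup M] [Module F M]
    (B : LinearMap.BilinForm F M) (Q : Submodule F M) (x y : ↥Q) :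
    B.restrict Q x y = B (x : M) (y : M) := rfl

/-- If `B` is symmetric against `R` and nondegenerate on `R`, then `R` and its orthogonal are
complementary and `B` is nondegenerate on the orthogonal. -/
theorem bd_compl_of_nondeg {F : Type*} [Field F] {M : Type*} [AddCommGroup M] [Module F M]
    [FiniteDimensional F M] (B : LinearMap.BilinForm F M) (hB : B.Nondegenerate)
    (R Rp : Submodule F M) (hRsym : ∀ x ∈ R, ∀ y, B x y = B y x)
    (hRp : ∀ y, y ∈ Rp ↔ ∀ x ∈ R, B x y = 0) (hE : R ⊓ Rp = ⊥) :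
    IsCompl R Rp ∧ (∀ x ∈ R, (∀ r ∈ R, B x r = 0) → x = 0) ∧
      (∀ y ∈ Rp, (∀ y' ∈ Rp, B y y' = 0) → y = 0) := by
  have hnd : ∀ x ∈ R, (∀ r ∈ R, B x r = 0) → x = 0 := by
    intro x hx h
    have hx' : x ∈ Rp := by
      rw [hRp]
      intro r hr
      rw [hRsym r hr x]
      exact h r hr
    have h1 : x ∈ R ⊓ Rp := ⟨hx, hx'⟩
    rw [hE] at h1
    exact (Submodule.mem_bot F).mp h1
  have hsep : LinearMap.SeparatingLeft (B.restrict R) := by
    intro x hx
    apply Subtype.ext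
    apply hnd x x.2
    intro r hr
    have h1 := hx ⟨r, hr⟩
    rw [bd_restrict_apply] at h1
    exact h1
  have hBR : (B.restrict R).Nondegenerate :=
    LinearMap.BilinForm.Nondegenerate.ofSeparatingLeft hsep
  have hcod : ∀ v : M, ∃ r ∈ R, v - r ∈ Rp := by
    intro v
    obtain ⟨r', hr'⟩ : ∃ r' : ↥R, ∀ x : ↥R, B (r' : M) (x : M) = B (x : M) v := by
      refine ⟨(LinearMap.BilinForm.toDual (B.restrict R) hBR).symm ((B.flip v) ∘ₗ R.subtype),
        fun x => ?_⟩
      have h1 := LinearMap.BilinForm.apply_toDual_symm_apply (hB := hBR)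
        ((B.flip v) ∘ₗ R.subtype) x
      rw [bd_restrict_apply] at h1
      rw [h1]
      simp [LinearMap.BilinForm.flip_apply]
    refine ⟨r', r'.2, ?_⟩
    rw [hRp]
    intro x hx
    have h3 : B (r' : M) x = B x v := hr' ⟨x, hx⟩
    rw [map_sub, ← h3, hRsym (r' : M) r'.2 x, sub_self]
  have hcompl : IsCompl R Rp := by
    refine ⟨disjoint_iff.mpr hE, ?_⟩
    rw [Submodule.codisjoint_iff_exists_add_eq]
    intro v
    obtain ⟨r, hr, hvr⟩ := hcod v
    exact ⟨r, v - r, hr, hvr, by abel⟩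
  refine ⟨hcompl, hnd, ?_⟩
  intro y hy h
  apply hB.1
  intro v
  obtain ⟨r, hr, hvr⟩ := hcod v
  have hv : v = r + (v - r) := by abel
  rw [hv, map_add, h _ hvr, add_zero, ← hRsym r hr y]
  exact (hRp y).mp hy r hr

/-- Gluing a symmetric form on `R` with one on a complement. -/
theorem bd_sym_of_split {F : Type*} [Field F] {G : Type*} [Group G] {M : Type*}
    [AddCommGroup M] [Module F M]
    (ρ : Representation F G M) (B : LinearMap.BilinForm F M)
    (hinv : ∀ g : G, ∀ x y : M, B (ρ g x) (ρ g y) = B x y)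
    (R Q : Submodule F M) (hRinv : ∀ g : G, ∀ v ∈ R, ρ g v ∈ R)
    (hQinv : ∀ g : G, ∀ v ∈ Q, ρ g v ∈ Q)
    (hRsym : ∀ x ∈ R, ∀ y, B x y = B y x) (hcompl : IsCompl R Q)
    (hnd : ∀ x ∈ R, (∀ r ∈ R, B x r = 0) → x = 0)
    (S' : LinearMap.BilinForm F ↥Q) (hS'sym : ∀ x y, S' x y = S' y x)
    (hS'inv : ∀ g : G, ∀ x y x' y' : ↥Q, (x' : M) = ρ g x → (y' : M) = ρ g y →
      S' x' y' = S' x y)
    (hS'nd : ∀ x, (∀ y, S' x y = 0) → x = 0) :
    ∃ S : LinearMap.BilinForm F M, (∀ x y : M, S x y = S y x) ∧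
      (∀ g : G, ∀ x y : M, S (ρ g x) (ρ g y) = S x y) ∧
      (∀ x : M, (∀ y : M, S x y = 0) → x = 0) := by
  obtain ⟨p, hp1, hp2, hp3, hp4⟩ := bd_proj hcompl
  have hpe := bd_proj_equiv ρ hRinv hQinv p hp1 hp2 hp3 hp4
  obtain ⟨pQ, hpQ⟩ : ∃ pQ : M →ₗ[F] ↥Q, ∀ v, (pQ v : M) = v - p v :=
    ⟨LinearMap.codRestrict Q (LinearMap.id - p) (fun v => by simpa using hp2 v),
      fun v => by simp⟩
  obtain ⟨S, hS⟩ : ∃ S : LinearMap.BilinForm F M, ∀ x y,
      S x y = B (p x) (p y) + S' (pQ x) (pQ y) :=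
    ⟨B.compl₁₂ p p + S'.compl₁₂ pQ pQ, fun x y => by
      simp only [LinearMap.add_apply, LinearMap.compl₁₂_apply]⟩
  refine ⟨S, ?_, ?_, ?_⟩
  · intro x y
    rw [hS, hS, hRsym _ (hp1 x), hS'sym]
  · intro g x y
    rw [hS, hS, hpe, hpe, hinv,
      hS'inv g (pQ x) (pQ y) (pQ (ρ g x)) (pQ (ρ g y)) ?_ ?_]
    · rw [hpQ, hpQ, hpe, map_sub]
    · rw [hpQ, hpQ, hpe, map_sub]
  · intro x hx
    have h1 : p x = 0 := by
      apply hnd _ (hp1 x)
      intro r hr
      have h := hx r
      have h0 : pQ r = 0 := by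
        apply Subtype.ext
        rw [hpQ, hp3 r hr, sub_self]
        rfl
      rw [hS, h0, map_zero, add_zero, hp3 r hr] at h
      exact h
    have h2 : pQ x = 0 := by
      apply hS'nd
      intro y
      have h := hx (y : M)
      have h0 : pQ (y : M) = y := by
        apply Subtype.ext
        rw [hpQ, hp4 _ y.2, sub_zero]
      rw [hS, h0, hp4 _ y.2, map_zero, zero_add] at h
      exact h
    have h3 := congrArg Subtype.val h2
    rw [hpQ, h1, sub_zero] at h3
    simpa using h3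

set_option maxHeartbeats 1000000 in
/-- The hyperbolic step: a totally isotropic invariant subspace fixed by the asymmetry. -/
theorem bd_sym_of_hyp {F : Type*} [Field F] {G : Type*} [Group G] [Finite G] {M : Type*}
    [AddCommGroup M] [Module F M] [FiniteDimensional F M] (hG : (Nat.card G : F) ≠ 0)
    (ρ : Representation F G M) (B : LinearMap.BilinForm F M) (hB : B.Nondegenerate)
    (hinv : ∀ g : G, ∀ x y : M, B (ρ g x) (ρ g y) = B x y)
    (E : Submodule F M) (hEinv : ∀ g : G, ∀ v ∈ E, ρ g v ∈ E)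
    (hEsym : ∀ x ∈ E, ∀ y, B x y = B y x) (hEiso : ∀ x ∈ E, ∀ y ∈ E, B x y = 0)
    (IH : ∀ (M₁ : Submodule F M), (∀ g : G, ∀ v ∈ M₁, ρ g v ∈ M₁) → E ⊓ M₁ = ⊥ →
      (∀ y ∈ M₁, (∀ y' ∈ M₁, B y y' = 0) → y = 0) →
      ∃ S₁ : LinearMap.BilinForm F ↥M₁, (∀ x y, S₁ x y = S₁ y x) ∧
        (∀ g : G, ∀ x y x' y' : ↥M₁, (x' : M) = ρ g x → (y' : M) = ρ g y →
          S₁ x' y' = S₁ x y) ∧
        (∀ x, (∀ y, S₁ x y = 0) → x = 0)) :
    ∃ S : LinearMap.BilinForm F M, (∀ x y : M, S x y = S y x) ∧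
      (∀ g : G, ∀ x y : M, S (ρ g x) (ρ g y) = S x y) ∧
      (∀ x : M, (∀ y : M, S x y = 0) → x = 0) := by
  obtain ⟨Ep, hEp⟩ := bd_perp B E
  have hEpinv := bd_perp_inv ρ B hinv E Ep hEinv hEp
  have hEle : ∀ y ∈ E, y ∈ Ep := by
    intro y hy
    rw [hEp]
    intro x hx
    exact hEiso x hx y hy
  obtain ⟨C, hCinv, hEC⟩ := bd_maschke hG ρ E hEinv
  obtain ⟨E2, hE2inv, hEpE2⟩ := bd_maschke hG ρ Ep hEpinv
  obtain ⟨p, hp1, hp2, hp3, hp4⟩ := bd_proj hEpE2
  have hpe := bd_proj_equiv ρ hEpinv hE2inv p hp1 hp2 hp3 hp4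
  obtain ⟨q, hq1, hq2, hq3, hq4⟩ := bd_proj hEC
  have hqe := bd_proj_equiv ρ hEinv hCinv q hq1 hq2 hq3 hq4
  have hP1 : ∀ f ∈ E2, (∀ e ∈ E, B e f = 0) → f = 0 := by
    intro f hf h
    have hf' : f ∈ Ep := (hEp f).mpr h
    exact Submodule.disjoint_def.mp hEpE2.disjoint f hf' hf
  have hBe : ∀ e ∈ E, ∀ a ∈ Ep, B e a = 0 := fun e he a ha => (hEp a).mp ha e he
  have hP2 : ∀ e ∈ E, (∀ f ∈ E2, B e f = 0) → e = 0 := by
    intro e he h
    apply hB.1
    intro v
    have hv : v = p v + (v - p v) := by abel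
    rw [hv, map_add, hBe e he _ (hp1 v), h _ (hp2 v), add_zero]
  have hP3 : ∀ y : M, ∃ e ∈ E, ∀ f ∈ E2, B e f = B y f := by
    obtain ⟨Φ, hΦ⟩ : ∃ Φ : ↥E →ₗ[F] Module.Dual F ↥E2,
        ∀ (e : ↥E) (f : ↥E2), Φ e f = B (e : M) (f : M) :=
      ⟨B.domRestrict₁₂ E E2, fun e f => LinearMap.domRestrict₁₂_apply B E E2 e f⟩
    obtain ⟨Ψ, hΨ⟩ : ∃ Ψ : ↥E2 →ₗ[F] Module.Dual F ↥E,
        ∀ (f : ↥E2) (e : ↥E), Ψ f e = B (e : M) (f : M) :=
      ⟨B.flip.domRestrict₁₂ E2 E, fun f e => by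
        rw [LinearMap.domRestrict₁₂_apply, LinearMap.BilinForm.flip_apply]⟩
    have hΦinj : Function.Injective Φ := by
      rw [← LinearMap.ker_eq_bot, LinearMap.ker_eq_bot']
      intro e he
      apply Subtype.ext
      apply hP2 e e.2
      intro f hf
      have h1 := congrArg (fun φ : Module.Dual F ↥E2 => φ ⟨f, hf⟩) he
      simpa [hΦ] using h1
    have hΨinj : Function.Injective Ψ := by
      rw [← LinearMap.ker_eq_bot, LinearMap.ker_eq_bot']
      intro f hf
      apply Subtype.ext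
      apply hP1 f f.2
      intro e he
      have h1 := congrArg (fun φ : Module.Dual F ↥E => φ ⟨e, he⟩) hf
      simpa [hΨ] using h1
    have h1 : Module.finrank F ↥E ≤ Module.finrank F ↥E2 := by
      have h := LinearMap.finrank_le_finrank_of_injective hΦinj
      rwa [Subspace.dual_finrank_eq] at h
    have h2 : Module.finrank F ↥E2 ≤ Module.finrank F ↥E := by
      have h := LinearMap.finrank_le_finrank_of_injective hΨinj
      rwa [Subspace.dual_finrank_eq] at h
    have h3 : Module.finrank F ↥E = Module.finrank F (Module.Dual F ↥E2) := by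
      rw [Subspace.dual_finrank_eq]
      omega
    have hΦsurj := (LinearMap.injective_iff_surjective_of_finrank_eq_finrank h3).mp hΦinj
    intro y
    obtain ⟨e, he⟩ := hΦsurj ((B y) ∘ₗ E2.subtype)
    refine ⟨e, e.2, fun f hf => ?_⟩
    have h4 := congrArg (fun φ : Module.Dual F ↥E2 => φ ⟨f, hf⟩) he
    simpa [hΦ] using h4
  obtain ⟨M₁, hM₁⟩ : ∃ M₁ : Submodule F M, M₁ = C ⊓ Ep := ⟨_, rfl⟩
  have hM₁C : ∀ y ∈ M₁, y ∈ C := by
    intro y hy
    rw [hM₁] at hy
    exact hy.1
  have hM₁Ep : ∀ y ∈ M₁, y ∈ Ep := by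
    intro y hy
    rw [hM₁] at hy
    exact hy.2
  have hM₁mem : ∀ y, y ∈ C → y ∈ Ep → y ∈ M₁ := by
    intro y h1 h2
    rw [hM₁]
    exact ⟨h1, h2⟩
  have hM₁inv : ∀ g : G, ∀ v ∈ M₁, ρ g v ∈ M₁ := fun g v hv =>
    hM₁mem _ (hCinv g v (hM₁C v hv)) (hEpinv g v (hM₁Ep v hv))
  have hECbot : ∀ y, y ∈ E → y ∈ C → y = 0 := fun y h1 h2 =>
    Submodule.disjoint_def.mp hEC.disjoint y h1 h2
  have hEM₁ : E ⊓ M₁ = ⊥ := by
    rw [eq_bot_iff]
    intro y hy
    rw [Submodule.mem_bot]
    exact hECbot y hy.1 (hM₁C y hy.2)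
  have hπ₁mem : ∀ v, p v - q (p v) ∈ M₁ := fun v =>
    hM₁mem _ (hq2 (p v)) (Ep.sub_mem (hp1 v) (hEle _ (hq1 (p v))))
  have hM₁nd : ∀ y ∈ M₁, (∀ y' ∈ M₁, B y y' = 0) → y = 0 := by
    intro y hy h
    obtain ⟨e, he, hef⟩ := hP3 y
    have hye : y - e = 0 := by
      apply hB.1
      intro v
      have hv : v = q (p v) + (p v - q (p v)) + (v - p v) := by abel
      have h1 : B y (q (p v)) = 0 := by
        rw [← hEsym _ (hq1 (p v)) y]
        exact hBe _ (hq1 (p v)) y (hM₁Ep y hy)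
      have h2 : B y (p v - q (p v)) = 0 := h _ (hπ₁mem v)
      have h3 : B e (p v) = 0 := hBe e he _ (hp1 v)
      have h4 : B e (v - p v) = B y (v - p v) := hef _ (hp2 v)
      have h5 : B y v = B y (v - p v) := by
        conv_lhs => rw [hv]
        rw [map_add, map_add, h1, h2, zero_add, zero_add]
      have h6 : B e v = B e (v - p v) := by
        have hv' : v = p v + (v - p v) := by abel
        conv_lhs => rw [hv']
        rw [map_add, h3, zero_add]
      rw [map_sub, LinearMap.sub_apply, h5, h6, h4, sub_self]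
    have hye' : y = e := sub_eq_zero.mp hye
    exact hECbot y (by rw [hye']; exact he) (hM₁C y hy)
  obtain ⟨S₁, hS₁sym, hS₁inv, hS₁nd⟩ := IH M₁ hM₁inv hEM₁ hM₁nd
  obtain ⟨π₁, hπ₁⟩ : ∃ π₁ : M →ₗ[F] ↥M₁, ∀ v, (π₁ v : M) = p v - q (p v) :=
    ⟨LinearMap.codRestrict M₁ ((LinearMap.id - q) ∘ₗ p) (fun v => by simpa using hπ₁mem v),
      fun v => by simp⟩
  obtain ⟨S, hS⟩ : ∃ S : LinearMap.BilinForm F M, ∀ x y,
      S x y = B (q (p x)) (y - p y) + B (q (p y)) (x - p x) + S₁ (π₁ x) (π₁ y) :=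
    ⟨B.compl₁₂ (q ∘ₗ p) (LinearMap.id - p) +
        LinearMap.flip (B.compl₁₂ (q ∘ₗ p) (LinearMap.id - p)) + S₁.compl₁₂ π₁ π₁,
      fun x y => by
        simp only [LinearMap.add_apply, LinearMap.compl₁₂_apply, LinearMap.flip_apply,
          LinearMap.comp_apply, LinearMap.sub_apply, LinearMap.id_apply]⟩
  refine ⟨S, ?_, ?_, ?_⟩
  · intro x y
    rw [hS, hS, hS₁sym]
    ring
  · intro g x y
    rw [hS, hS, hS₁inv g (π₁ x) (π₁ y) (π₁ (ρ g x)) (π₁ (ρ g y)) ?_ ?_]
    · simp only [hpe, hqe, ← map_sub, hinv]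
    · rw [hπ₁, hπ₁, hpe, hqe, map_sub]
    · rw [hπ₁, hπ₁, hpe, hqe, map_sub]
  · intro x hx
    have h1 : q (p x) = 0 := by
      apply hP2 _ (hq1 (p x))
      intro f hf
      have h := hx f
      have h0 : π₁ f = 0 := by
        apply Subtype.ext
        rw [hπ₁, hp4 f hf, map_zero, sub_zero]
        rfl
      rw [hS, h0] at h
      simpa [hp4 f hf] using h
    have h2 : x - p x = 0 := by
      apply hP1 _ (hp2 x)
      intro e he
      have h := hx e
      have hpe' : p e = e := hp3 e (hEle e he)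
      have h0 : π₁ e = 0 := by
        apply Subtype.ext
        rw [hπ₁, hpe', hq3 e he, sub_self]
        rfl
      rw [hS, h0] at h
      simpa [hpe', hq3 e he] using h
    have h3 : π₁ x = 0 := by
      apply hS₁nd
      intro m
      have h := hx (m : M)
      have hpm : p (m : M) = m := hp3 _ (hM₁Ep _ m.2)
      have hqm : q (m : M) = 0 := hq4 _ (hM₁C _ m.2)
      have h0 : π₁ (m : M) = m := by
        apply Subtype.ext
        rw [hπ₁, hpm, hqm, sub_zero]
      rw [hS, h0] at h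
      simpa [hpm, hqm] using h
    have h4 := congrArg Subtype.val h3
    rw [hπ₁, h1, sub_zero] at h4
    have h5 : p x = 0 := by simpa using h4
    rw [h5, sub_zero] at h2
    exact h2

set_option maxHeartbeats 1000000 in
/-- In characteristic 2, a representation of a group of invertible order with an invariant
nondegenerate bilinear form carries an invariant nondegenerate symmetric bilinear form. -/
theorem bd_exists_symm {F : Type*} [Field F] {G : Type*} [Group G] [Finite G]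
    (h2 : (2 : F) = 0) (hG : (Nat.card G : F) ≠ 0) :
    ∀ (n : ℕ) (M : Type u) [AddCommGroup M] [Module F M] [FiniteDimensional F M]
      (ρ : Representation F G M) (B : LinearMap.BilinForm F M),
      Module.finrank F M ≤ n → B.Nondegenerate →
      (∀ g : G, ∀ x y : M, B (ρ g x) (ρ g y) = B x y) →
      ∃ S : LinearMap.BilinForm F M, (∀ x y : M, S x y = S y x) ∧
        (∀ g : G, ∀ x y : M, S (ρ g x) (ρ g y) = S x y) ∧
        (∀ x : M, (∀ y : M, S x y = 0) → x = 0) := by
  intro n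
  induction n with
  | zero =>
    intro M _ _ _ ρ B hfin hB hinv
    have hsub : Subsingleton M := (Module.finrank_zero_iff (R := F)).mp (Nat.le_zero.mp hfin)
    exact ⟨0, fun x y => rfl, fun g x y => rfl, fun x _ => Subsingleton.elim _ _⟩
  | succ n ih =>
    intro M _ _ _ ρ B hfin hB hinv
    have IH : ∀ Q : Submodule F M, (∀ g : G, ∀ v ∈ Q, ρ g v ∈ Q) → Module.finrank F ↥Q ≤ n →
        (∀ y ∈ Q, (∀ y' ∈ Q, B y y' = 0) → y = 0) →
        ∃ S₁ : LinearMap.BilinForm F ↥Q, (∀ x y, S₁ x y = S₁ y x) ∧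
          (∀ g : G, ∀ x y x' y' : ↥Q, (x' : M) = ρ g x → (y' : M) = ρ g y →
            S₁ x' y' = S₁ x y) ∧
          (∀ x, (∀ y, S₁ x y = 0) → x = 0) := by
      intro Q hQinv hQfin hQnd
      have hsep : LinearMap.SeparatingLeft (B.restrict Q) := by
        intro x hx
        apply Subtype.ext
        apply hQnd x x.2
        intro y' hy'
        have h1 := hx ⟨y', hy'⟩
        rw [bd_restrict_apply] at h1
        exact h1
      have hBQ := LinearMap.BilinForm.Nondegenerate.ofSeparatingLeft hsep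
      have hcoe : ∀ (g : G) (x : ↥Q),
          (((ρ.subrepresentation Q (fun g v hv => hQinv g v hv)) g x : ↥Q) : M) = ρ g x := by
        intro g x
        rw [Representation.subrepresentation_apply, LinearMap.coe_restrict_apply]
      obtain ⟨S₁, h1, h2', h3⟩ := ih ↥Q (ρ.subrepresentation Q (fun g v hv => hQinv g v hv))
        (B.restrict Q) hQfin hBQ (by
          intro g x y
          rw [bd_restrict_apply, bd_restrict_apply, hcoe, hcoe]
          exact hinv g x y)
      refine ⟨S₁, h1, ?_, h3⟩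
      intro g x y x' y' hx' hy'
      have e1 : x' = (ρ.subrepresentation Q (fun g v hv => hQinv g v hv)) g x :=
        Subtype.ext (by rw [hx', hcoe])
      have e2 : y' = (ρ.subrepresentation Q (fun g v hv => hQinv g v hv)) g y :=
        Subtype.ext (by rw [hy', hcoe])
      rw [e1, e2, h2']
    obtain ⟨T, hT⟩ := bd_exists_asym B hB
    have hcomm := bd_asym_comm ρ B hB hinv T hT
    obtain ⟨R, hRdef⟩ : ∃ R : Submodule F M, R = LinearMap.ker (T - 1) := ⟨_, rfl⟩
    have hRmem : ∀ x, x ∈ R ↔ T x = x := by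
      intro x
      rw [hRdef, LinearMap.mem_ker, LinearMap.sub_apply, Module.End.one_apply, sub_eq_zero]
    have hRinv : ∀ g : G, ∀ v ∈ R, ρ g v ∈ R := by
      intro g v hv
      rw [hRmem] at hv ⊢
      rw [hcomm, hv]
    have hRsym : ∀ x ∈ R, ∀ y, B x y = B y x := by
      intro x hx y
      rw [← hT y x, (hRmem x).mp hx]
    by_cases hR : R = ⊥
    · have hinjN : Function.Injective ⇑(T - 1 : M →ₗ[F] M) := by
        rw [← LinearMap.ker_eq_bot, ← hRdef, hR]
      have hsurjN := LinearMap.injective_iff_surjective.mp hinjN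
      refine ⟨B + B.flip, ?_, ?_, ?_⟩
      · intro x y
        rw [LinearMap.add_apply, LinearMap.add_apply, LinearMap.BilinForm.flip_apply,
          LinearMap.add_apply, LinearMap.add_apply, LinearMap.BilinForm.flip_apply, add_comm]
      · intro g x y
        rw [LinearMap.add_apply, LinearMap.add_apply, LinearMap.BilinForm.flip_apply, hinv, hinv,
          LinearMap.add_apply, LinearMap.add_apply, LinearMap.BilinForm.flip_apply]
      · intro x hx
        apply hB.1
        intro v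
        obtain ⟨y, rfl⟩ := hsurjN v
        have h5 := hx y
        rw [LinearMap.add_apply, LinearMap.add_apply, LinearMap.BilinForm.flip_apply] at h5
        rw [LinearMap.sub_apply, Module.End.one_apply, map_sub, hT]
        linear_combination h5 - (B x y) * h2
    · obtain ⟨Rp, hRp⟩ := bd_perp B R
      have hRpinv := bd_perp_inv ρ B hinv R Rp hRinv hRp
      by_cases hE : R ⊓ Rp = ⊥
      · obtain ⟨hcompl, hnd, hndp⟩ := bd_compl_of_nondeg B hB R Rp hRsym hRp hE
        have hfinRp : Module.finrank F ↥Rp ≤ n := by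
          have h1 := Submodule.finrank_add_eq_of_isCompl hcompl
          have h3 : Module.finrank F ↥R ≠ 0 := by
            rw [Ne, Submodule.finrank_eq_zero]
            exact hR
          omega
        obtain ⟨S', hS'sym, hS'inv, hS'nd⟩ := IH Rp hRpinv hfinRp hndp
        exact bd_sym_of_split ρ B hinv R Rp hRinv hRpinv hRsym hcompl hnd S' hS'sym hS'inv hS'nd
      · obtain ⟨E, hEdef⟩ : ∃ E : Submodule F M, E = R ⊓ Rp := ⟨_, rfl⟩
        have hER : ∀ x ∈ E, x ∈ R := by
          intro x hx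
          rw [hEdef] at hx
          exact hx.1
        have hERp : ∀ x ∈ E, x ∈ Rp := by
          intro x hx
          rw [hEdef] at hx
          exact hx.2
        have hEinv : ∀ g : G, ∀ v ∈ E, ρ g v ∈ E := by
          intro g v hv
          rw [hEdef]
          exact ⟨hRinv g v (hER v hv), hRpinv g v (hERp v hv)⟩
        have hEsym : ∀ x ∈ E, ∀ y, B x y = B y x := fun x hx y => hRsym x (hER x hx) y
        have hEiso : ∀ x ∈ E, ∀ y ∈ E, B x y = 0 := fun x hx y hy =>
          (hRp y).mp (hERp y hy) x (hER x hx)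
        have hEne : Module.finrank F ↥E ≠ 0 := by
          rw [Ne, Submodule.finrank_eq_zero, hEdef]
          exact hE
        apply bd_sym_of_hyp hG ρ B hB hinv E hEinv hEsym hEiso
        intro M₁ hM₁inv hEM₁ hM₁nd
        apply IH M₁ hM₁inv _ hM₁nd
        have h1 := Submodule.finrank_sup_add_finrank_inf_eq E M₁
        rw [hEM₁, finrank_bot] at h1
        have h3 := Submodule.finrank_le (E ⊔ M₁)
        omega

end Cfsg.Agent.Helper19
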