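import Mathlib
import Cfsg.Agent.Helper19.BilDecomp
import Cfsg.Agent.Helper19.BilDecompOdd
import Cfsg.Agent.Helper19.BilDecompSym

/-!
Decomposition of a self-dual representation (S4966), part 4: characteristic 2 and the
final statement.
-/

set_option autoImplicit false

namespace Cfsg.Agent.Helper19

universe u

set_option maxHeartbeats 1000000 in
theorem bd_even {F : Type*} [Field F] {G : Type*} [Group G] [Finite G] {V : Type u}
    [AddCommGroup V] [Module F V] [FiniteDimensional F V]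
    (h2 : (2 : F) = 0) (hG : (Nat.card G : F) ≠ 0) (ρ : Representation F G V)
    (B : LinearMap.BilinForm F V) (hB : B.Nondegenerate)
    (hBinv : ∀ g : G, ∀ x y : V, B (ρ g x) (ρ g y) = B x y) :
    ∃ U W : Submodule F V, IsCompl U W ∧ (∀ g : G, ∀ u ∈ U, ρ g u ∈ U) ∧
      (∀ g : G, ∀ w ∈ W, ρ g w ∈ W) ∧
      (∃ A : LinearMap.BilinForm F V, (∀ x : V, A x x = 0) ∧
        (∀ g : G, ∀ x ∈ U, ∀ y ∈ U, A (ρ g x) (ρ g y) = A x y) ∧
        (∀ x ∈ U, (∀ y ∈ U, A x y = 0) → x = 0)) ∧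
      (∃ S : LinearMap.BilinForm F V, (∀ x y : V, S x y = S y x) ∧
        (∀ g : G, ∀ x ∈ W, ∀ y ∈ W, S (ρ g x) (ρ g y) = S x y) ∧
        (∀ x ∈ W, (∀ y ∈ W, S x y = 0) → x = 0)) ∧
      (∀ g : G, ∀ w ∈ W, ρ g w = w) := by
  classical
  cases nonempty_fintype G
  obtain ⟨W, hW⟩ : ∃ W : Submodule F V, ∀ w, w ∈ W ↔ ∀ g : G, ρ g w = w :=
    ⟨{ carrier := {w | ∀ g : G, ρ g w = w}
       add_mem' := by
         intro a b ha hb g
         rw [map_add, ha g, hb g]
       zero_mem' := by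
         intro g
         rw [map_zero]
       smul_mem' := by
         intro c a ha g
         rw [map_smul, ha g] }, fun _ => Iff.rfl⟩
  have hWfix : ∀ g : G, ∀ w ∈ W, ρ g w = w := fun g w hw => (hW w).mp hw g
  have hWinv : ∀ g : G, ∀ w ∈ W, ρ g w ∈ W := by
    intro g w hw
    rw [hWfix g w hw]
    exact hw
  obtain ⟨U, hUinv, hWU⟩ := bd_maschke hG ρ W hWinv
  have hcompl : IsCompl U W := hWU.symm
  have hsum : ∀ u ∈ U, ∑ g : G, ρ g u = 0 := by
    intro u hu
    have h1 : ∑ g : G, ρ g u ∈ U := U.sum_mem fun g _ => hUinv g u hu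
    have h2' : ∑ g : G, ρ g u ∈ W := by
      rw [hW]
      intro h
      have h3 : ∑ g : G, ρ g u = ∑ g : G, ρ (h * g) u :=
        (Equiv.sum_comp (Equiv.mulLeft h) (fun g => ρ g u)).symm
      rw [map_sum]
      conv_rhs => rw [h3]
      refine Finset.sum_congr rfl fun g _ => ?_
      rw [map_mul, Module.End.mul_apply]
    exact Submodule.disjoint_def.mp hcompl.disjoint _ h1 h2'
  have hcard : ∀ c : F, ∑ _g : G, c = (Nat.card G : F) * c := by
    intro c
    rw [Finset.sum_const, Finset.card_univ, ← Nat.card_eq_fintype_card, nsmul_eq_mul]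
  have horth2 : ∀ u ∈ U, ∀ w ∈ W, B u w = 0 := by
    intro u hu w hw
    have h1 : ∑ g : G, B (ρ g u) w = 0 := by
      rw [← LinearMap.sum_apply, ← map_sum, hsum u hu, map_zero, LinearMap.zero_apply]
    have h3 : ∀ g : G, B (ρ g u) w = B u w := by
      intro g
      conv_lhs => rw [← hWfix g w hw]
      rw [hBinv]
    rw [Finset.sum_congr rfl fun g _ => h3 g, hcard] at h1
    exact (mul_eq_zero.mp h1).resolve_left hG
  have hUnd : ∀ y ∈ U, (∀ y' ∈ U, B y y' = 0) → y = 0 := by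
    intro y hy h
    apply hB.1
    intro v
    obtain ⟨u, w, hu, hw, rfl⟩ := Submodule.codisjoint_iff_exists_add_eq.mp hcompl.codisjoint v
    rw [map_add, h u hu, horth2 y hy w hw, add_zero]
  have hsep : LinearMap.SeparatingLeft (B.restrict U) := by
    intro x hx
    apply Subtype.ext
    apply hUnd x x.2
    intro y' hy'
    have h1 := hx ⟨y', hy'⟩
    rw [bd_restrict_apply] at h1
    exact h1
  have hBU := LinearMap.BilinForm.Nondegenerate.ofSeparatingLeft hsep
  have hcoe : ∀ (g : G) (x : ↥U),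
      (((ρ.subrepresentation U (fun g v hv => hUinv g v hv)) g x : ↥U) : V) = ρ g x := by
    intro g x
    rw [Representation.subrepresentation_apply, LinearMap.coe_restrict_apply]
  obtain ⟨SU, hSUsym, hSUinv, hSUnd⟩ := bd_exists_symm h2 hG (Module.finrank F ↥U) ↥U
    (ρ.subrepresentation U (fun g v hv => hUinv g v hv)) (B.restrict U) le_rfl hBU (by
      intro g x y
      rw [bd_restrict_apply, bd_restrict_apply, hcoe, hcoe]
      exact hBinv g x y)
  obtain ⟨p, hp1, hp2, hp3, hp4⟩ := bd_proj hcompl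
  have hpe := bd_proj_equiv ρ hUinv hWinv p hp1 hp2 hp3 hp4
  obtain ⟨pU, hpU⟩ : ∃ pU : V →ₗ[F] ↥U, ∀ v, (pU v : V) = p v :=
    ⟨LinearMap.codRestrict U p hp1, fun v => rfl⟩
  obtain ⟨A, hA⟩ : ∃ A : LinearMap.BilinForm F V, ∀ x y, A x y = SU (pU x) (pU y) :=
    ⟨SU.compl₁₂ pU pU, fun x y => by simp only [LinearMap.compl₁₂_apply]⟩
  have hAsym : ∀ x y, A x y = A y x := by
    intro x y
    rw [hA, hA, hSUsym]
  have hAinvU : ∀ g : G, ∀ x ∈ U, ∀ y ∈ U, A (ρ g x) (ρ g y) = A x y := by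
    intro g x _ y _
    rw [hA, hA]
    have e1 : pU (ρ g x) = (ρ.subrepresentation U (fun g v hv => hUinv g v hv)) g (pU x) :=
      Subtype.ext (by rw [hpU, hcoe, hpU, hpe])
    have e2 : pU (ρ g y) = (ρ.subrepresentation U (fun g v hv => hUinv g v hv)) g (pU y) :=
      Subtype.ext (by rw [hpU, hcoe, hpU, hpe])
    rw [e1, e2, hSUinv]
  have hAadd : ∀ x y, A (x + y) (x + y) = A x x + A y y := by
    intro x y
    simp only [map_add, LinearMap.add_apply]
    rw [hAsym y x]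
    linear_combination (A x y) * h2
  obtain ⟨qh, hqh⟩ : ∃ qh : V →+ F, ∀ x, qh x = A x x :=
    ⟨AddMonoidHom.mk' (fun x => A x x) hAadd, fun x => rfl⟩
  have hAU : ∀ u ∈ U, A u u = 0 := by
    intro u hu
    have h1 : qh (∑ g : G, ρ g u) = ∑ g : G, qh (ρ g u) := map_sum qh _ _
    rw [hsum u hu, map_zero] at h1
    have h3 : ∀ g : G, qh (ρ g u) = A u u := by
      intro g
      rw [hqh]
      exact hAinvU g u hu u hu
    rw [Finset.sum_congr rfl fun g _ => h3 g, hcard] at h1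
    exact (mul_eq_zero.mp h1.symm).resolve_left hG
  have hAalt : ∀ x, A x x = 0 := by
    intro x
    have h1 : A x x = A (p x) (p x) := by
      rw [hA, hA]
      have h3 : pU (p x) = pU x := Subtype.ext (by rw [hpU, hpU, hp3 _ (hp1 x)])
      rw [h3]
    rw [h1]
    exact hAU _ (hp1 x)
  have hAnd : ∀ x ∈ U, (∀ y ∈ U, A x y = 0) → x = 0 := by
    intro x hx h
    have h1 : pU x = 0 := by
      apply hSUnd
      intro y
      have h3 := h (y : V) y.2
      rw [hA] at h3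
      have h4 : pU (y : V) = y := Subtype.ext (by rw [hpU, hp3 _ y.2])
      rw [h4] at h3
      exact h3
    have h4 := congrArg Subtype.val h1
    rw [hpU, hp3 x hx] at h4
    simpa using h4
  obtain ⟨pw, hpw1, hpw2, hpw3, hpw4⟩ := bd_proj hWU
  obtain ⟨pW, hpW⟩ : ∃ pW : V →ₗ[F] ↥W, ∀ v, (pW v : V) = pw v :=
    ⟨LinearMap.codRestrict W pw hpw1, fun v => rfl⟩
  have b := Module.finBasis F ↥W
  obtain ⟨S, hS⟩ : ∃ S : LinearMap.BilinForm F V, ∀ x y,
      S x y = ∑ i, b.coord i (pW x) * b.coord i (pW y) :=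
    ⟨∑ i, LinearMap.BilinForm.linMulLin (b.coord i ∘ₗ pW) (b.coord i ∘ₗ pW), fun x y => by
      simp [LinearMap.sum_apply, LinearMap.BilinForm.linMulLin_apply]⟩
  have hSsym : ∀ x y, S x y = S y x := by
    intro x y
    rw [hS, hS]
    exact Finset.sum_congr rfl fun i _ => mul_comm _ _
  have hSnd : ∀ x ∈ W, (∀ y ∈ W, S x y = 0) → x = 0 := by
    intro x hx h
    have h1 : pW x = 0 := by
      apply b.ext_elem
      intro j
      have h3 := h (b j : V) (b j).2
      rw [hS] at h3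
      have h4 : pW (b j : V) = b j := Subtype.ext (by rw [hpW, hpw3 _ (b j).2])
      rw [h4] at h3
      simpa [Module.Basis.coord_apply, Module.Basis.repr_self, Finsupp.single_apply] using h3
    have h5 := congrArg Subtype.val h1
    rw [hpW, hpw3 x hx] at h5
    simpa using h5
  exact ⟨U, W, hcompl, hUinv, hWinv, ⟨A, hAalt, hAinvU, hAnd⟩,
    ⟨S, hSsym, fun g x hx y hy => by rw [hWfix g x hx, hWfix g y hy], hSnd⟩, hWfix⟩

theorem bd_main {F : Type*} [Field F] (p : ℕ) [Fact p.Prime] [CharP F p] {G : Type*} [Group G]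
    [Finite G] (hcop : ¬ p ∣ Nat.card G) {V : Type*} [AddCommGroup V] [Module F V]
    [FiniteDimensional F V] (ρ : Representation F G V) (B : LinearMap.BilinForm F V)
    (hB : B.Nondegenerate) (hBinv : ∀ g : G, ∀ x y : V, B (ρ g x) (ρ g y) = B x y) :
    ∃ U W : Submodule F V, IsCompl U W ∧ (∀ g : G, ∀ u ∈ U, ρ g u ∈ U) ∧
      (∀ g : G, ∀ w ∈ W, ρ g w ∈ W) ∧
      (∃ A : LinearMap.BilinForm F V, (∀ x : V, A x x = 0) ∧
        (∀ g : G, ∀ x ∈ U, ∀ y ∈ U, A (ρ g x) (ρ g y) = A x y) ∧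
        (∀ x ∈ U, (∀ y ∈ U, A x y = 0) → x = 0)) ∧
      (∃ S : LinearMap.BilinForm F V, (∀ x y : V, S x y = S y x) ∧
        (∀ g : G, ∀ x ∈ W, ∀ y ∈ W, S (ρ g x) (ρ g y) = S x y) ∧
        (∀ x ∈ W, (∀ y ∈ W, S x y = 0) → x = 0)) ∧
      (p = 2 → ∀ g : G, ∀ w ∈ W, ρ g w = w) := by
  have hG : (Nat.card G : F) ≠ 0 := by
    rw [Ne, CharP.cast_eq_zero_iff F p]
    exact hcop
  by_cases hp2 : p = 2
  · have h2 : (2 : F) = 0 := by
      have h := (CharP.cast_eq_zero_iff F p 2).mpr (by rw [hp2])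
      exact_mod_cast h
    obtain ⟨U, W, h1, h2', h3, h4, h5, h6⟩ := bd_even h2 hG ρ B hB hBinv
    exact ⟨U, W, h1, h2', h3, h4, h5, fun _ => h6⟩
  · have h2 : (2 : F) ≠ 0 := by
      intro h
      have h' : p ∣ 2 := (CharP.cast_eq_zero_iff F p 2).mp (by exact_mod_cast h)
      exact hp2 ((Nat.prime_dvd_prime_iff_eq (Fact.out) Nat.prime_two).mp h')
    obtain ⟨U, W, h1, h2', h3, h4, h5⟩ := bd_odd h2 ρ B hB hBinv
    exact ⟨U, W, h1, h2', h3, h4, h5, fun h => absurd h hp2⟩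

end Cfsg.Agent.Helper19
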