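import Mathlib

set_option autoImplicit false

namespace Cfsg.Agent.Helper19

open Module

section fitting
variable {F : Type*} [Field F] {V : Type*} [AddCommGroup V] [Module F V] [FiniteDimensional F V]

/-- Fitting kernel -/
noncomputable def nc_K (T : Module.End F V) : Submodule F V := LinearMap.ker (T ^ finrank F V)
/-- Fitting image -/
noncomputable def nc_I (T : Module.End F V) : Submodule F V := LinearMap.range (T ^ finrank F V)

theorem nc_disjoint (T : Module.End F V) : Disjoint (nc_K T) (nc_I T) := by
  rw [Submodule.disjoint_def]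
  intro x hxK hxI
  obtain ⟨y, rfl⟩ := hxI
  have h1 : y ∈ LinearMap.ker (T ^ (finrank F V + finrank F V)) := by
    rw [LinearMap.mem_ker, pow_add, Module.End.mul_apply]
    exact hxK
  rw [Module.End.ker_pow_eq_ker_pow_finrank_of_le (Nat.le_add_right _ _)] at h1
  exact h1

theorem nc_finrank_add (T : Module.End F V) :
    finrank F (nc_K T) + finrank F (nc_I T) = finrank F V := by
  have := LinearMap.finrank_range_add_finrank_ker (T ^ finrank F V)
  unfold nc_K nc_I
  omega

theorem nc_isCompl (T : Module.End F V) : IsCompl (nc_K T) (nc_I T) := by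
  refine ⟨nc_disjoint T, ?_⟩
  rw [codisjoint_iff]
  apply Submodule.eq_top_of_disjoint _ _ _ (nc_disjoint T)
  exact (nc_finrank_add T).ge

theorem nc_map_K (T : Module.End F V) : ∀ x ∈ nc_K T, T x ∈ nc_K T := by
  intro x hx
  unfold nc_K at *
  rw [LinearMap.mem_ker] at *
  rw [← Module.End.mul_apply, ← pow_succ, pow_succ', Module.End.mul_apply, hx, map_zero]

theorem nc_map_I (T : Module.End F V) : ∀ x ∈ nc_I T, T x ∈ nc_I T := by
  intro x hx
  obtain ⟨y, rfl⟩ := hx
  refine ⟨T y, ?_⟩
  rw [← Module.End.mul_apply, ← pow_succ, pow_succ', Module.End.mul_apply]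

theorem nc_restrict_K_pow (T : Module.End F V) :
    (T.restrict (nc_map_K T)) ^ finrank F V = 0 := by
  ext x
  rw [Module.End.pow_restrict, LinearMap.restrict_apply]
  simp only [LinearMap.zero_apply, ZeroMemClass.coe_zero]
  exact x.2

theorem nc_restrict_I_inj (T : Module.End F V) :
    Function.Injective (T.restrict (nc_map_I T)) := by
  rw [← LinearMap.ker_eq_bot, LinearMap.ker_eq_bot']
  intro x hx
  have hx0 : T (x : V) = 0 := by
    have := congrArg Subtype.val hx
    simpa using this
  have hK : (x : V) ∈ nc_K T := by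
    by_cases hn : finrank F V = 0
    · have : (x : V) = 0 := by
        haveI := Module.finrank_zero_iff.mp hn
        exact Subsingleton.elim _ _
      rw [this]; exact zero_mem _
    · unfold nc_K
      rw [LinearMap.mem_ker]
      obtain ⟨m, hm⟩ := Nat.exists_eq_succ_of_ne_zero hn
      rw [hm, pow_succ, Module.End.mul_apply, hx0, map_zero]
  have h0 := (Submodule.disjoint_def.mp (nc_disjoint T)) (x : V) hK x.2
  exact Subtype.ext h0

theorem nc_nilp_pow {N : Module.End F V} (hN : IsNilpotent N) {m : ℕ}
    (hm : finrank F V ≤ m) : N ^ m = 0 := by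
  obtain ⟨j, hj⟩ := hN
  have h1 : LinearMap.ker (N ^ j) ≤ LinearMap.ker (N ^ finrank F V) :=
    Module.End.ker_pow_le_ker_pow_finrank N j
  rw [hj, LinearMap.ker_zero] at h1
  have h2 : N ^ finrank F V = 0 := LinearMap.ker_eq_top.mp (top_le_iff.mp h1)
  obtain ⟨c, rfl⟩ := Nat.exists_eq_add_of_le hm
  rw [pow_add, h2, zero_mul]

end fitting

section intertwine
variable {F : Type*} [Field F] {V W : Type*} [AddCommGroup V] [Module F V]
  [AddCommGroup W] [Module F W]

theorem nc_intertwine_pow (T : Module.End F V) (S : Module.End F W) (φ : W →ₗ[F] V)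
    (h : T ∘ₗ φ = φ ∘ₗ S) (n : ℕ) : (T ^ n) ∘ₗ φ = φ ∘ₗ (S ^ n) := by
  induction n with
  | zero => ext x; simp
  | succ n ih =>
    rw [pow_succ, pow_succ, Module.End.mul_eq_comp, Module.End.mul_eq_comp,
      LinearMap.comp_assoc, h, ← LinearMap.comp_assoc, ih, LinearMap.comp_assoc]

end intertwine

end Cfsg.Agent.Helper19
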