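import Cfsg.Agent.Helper19.NilCount1

set_option autoImplicit false

namespace Cfsg.Agent.Helper19

open Module

universe u v w x

/-- domain of the block-conjugation map -/
abbrev nc_D (F : Type u) (A : Type v) (B : Type w) (V : Type x) [Field F]
    [AddCommGroup A] [Module F A] [AddCommGroup B] [Module F B] [AddCommGroup V] [Module F V] :
    Type (max v w x) :=
  ((A × B) ≃ₗ[F] V) × {N : Module.End F A // IsNilpotent N} × (B ≃ₗ[F] B)

section blocks
variable {F : Type u} [Field F] {A : Type v} {B : Type w} {V : Type x}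
  [AddCommGroup A] [Module F A] [AddCommGroup B] [Module F B] [AddCommGroup V] [Module F V]

/-- the block map -/
def nc_S (d : nc_D F A B V) : Module.End F (A × B) :=
  d.2.1.1.prodMap d.2.2.toLinearMap

/-- conjugated block map -/
def nc_Phi (d : nc_D F A B V) : Module.End F V :=
  d.1.toLinearMap ∘ₗ nc_S d ∘ₗ d.1.symm.toLinearMap

theorem nc_Phi_apply (d : nc_D F A B V) (z : A × B) :
    nc_Phi d (d.1 z) = d.1 (d.2.1.1 z.1, d.2.2 z.2) := by
  simp [nc_Phi, nc_S]

theorem nc_Phi_intertwine (d : nc_D F A B V) :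
    nc_Phi d ∘ₗ d.1.toLinearMap = d.1.toLinearMap ∘ₗ nc_S d := by
  ext z <;> simp [nc_Phi, nc_S]

theorem nc_S_pow (d : nc_D F A B V) (n : ℕ) :
    (nc_S d) ^ n = (d.2.1.1 ^ n).prodMap (d.2.2.toLinearMap ^ n) := by
  induction n with
  | zero => simp [LinearMap.prodMap_one]
  | succ n ih =>
    rw [pow_succ, ih, pow_succ, pow_succ, nc_S, LinearMap.prodMap_mul]

theorem nc_equiv_pow_inj (U : B ≃ₗ[F] B) (n : ℕ) :
    Function.Injective ((U.toLinearMap : Module.End F B) ^ n) := by
  rw [Module.End.coe_pow]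
  exact U.injective.iterate n

theorem nc_finrank_K_Phi [FiniteDimensional F A] [FiniteDimensional F B] [FiniteDimensional F V]
    (d : nc_D F A B V) (hdim : finrank F V = finrank F A + finrank F B) :
    finrank F (nc_K (nc_Phi d)) = finrank F A := by
  have hpow := nc_intertwine_pow (nc_Phi d) (nc_S d) d.1.toLinearMap (nc_Phi_intertwine d)
    (finrank F V)
  have hN0 : d.2.1.1 ^ finrank F V = 0 := nc_nilp_pow d.2.1.2 (by omega)
  have hval : ∀ z : A × B, (nc_Phi d ^ finrank F V) (d.1 z)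
      = d.1 (0, (d.2.2.toLinearMap ^ finrank F V) z.2) := by
    intro z
    have := congrArg (fun L : (A × B) →ₗ[F] V => L z) hpow
    simp only [LinearMap.comp_apply, LinearEquiv.coe_coe] at this
    rw [this, nc_S_pow, hN0]
    simp
  have hrange : LinearMap.range (d.1.toLinearMap ∘ₗ LinearMap.inl F A B) = nc_K (nc_Phi d) := by
    ext v
    constructor
    · rintro ⟨a, rfl⟩
      unfold nc_K
      rw [LinearMap.mem_ker]
      simp only [LinearMap.comp_apply, LinearEquiv.coe_coe, LinearMap.inl_apply]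
      rw [hval]
      simp
    · intro hv
      unfold nc_K at hv
      rw [LinearMap.mem_ker] at hv
      obtain ⟨z, rfl⟩ := d.1.surjective v
      rw [hval] at hv
      have h0 : ((0 : A), (d.2.2.toLinearMap ^ finrank F V) z.2) = 0 := by
        apply d.1.injective
        rw [hv, map_zero]
      have h1 : (d.2.2.toLinearMap ^ finrank F V) z.2 = 0 := (Prod.ext_iff.mp h0).2
      have h2 : z.2 = 0 := by
        apply nc_equiv_pow_inj d.2.2 (finrank F V)
        rw [h1, map_zero]
      refine ⟨z.1, ?_⟩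
      simp only [LinearMap.comp_apply, LinearEquiv.coe_coe, LinearMap.inl_apply]
      congr 1
      exact Prod.ext rfl h2.symm
  rw [← hrange]
  apply LinearMap.finrank_range_of_inj
  intro a a' haa
  simp only [LinearMap.comp_apply, LinearEquiv.coe_coe, LinearMap.inl_apply] at haa
  have := d.1.injective haa
  exact (Prod.ext_iff.mp this).1

theorem nc_conj_nilp (a : A ≃ₗ[F] A) {N : Module.End F A} (hN : IsNilpotent N) :
    IsNilpotent (a.symm.toLinearMap ∘ₗ N ∘ₗ a.toLinearMap : Module.End F A) := by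
  obtain ⟨m, hm⟩ := hN
  refine ⟨m, ?_⟩
  have h := nc_intertwine_pow (a.symm.toLinearMap ∘ₗ N ∘ₗ a.toLinearMap : Module.End F A) N
    a.symm.toLinearMap (by ext z; simp) m
  rw [hm] at h
  ext z
  have := congrArg (fun L : A →ₗ[F] A => L (a z)) h
  simpa using this

/-- the action of block-diagonal automorphisms on the domain -/
def nc_Psi (d₀ : nc_D F A B V) (h : (A ≃ₗ[F] A) × (B ≃ₗ[F] B)) : nc_D F A B V :=
  ((h.1.prodCongr h.2).trans d₀.1,
    ⟨(h.1.symm.toLinearMap ∘ₗ d₀.2.1.1 ∘ₗ h.1.toLinearMap : Module.End F A),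
      nc_conj_nilp h.1 d₀.2.1.2⟩,
    (h.2.trans d₀.2.2).trans h.2.symm)

theorem nc_Psi_fiber (d₀ : nc_D F A B V) (h : (A ≃ₗ[F] A) × (B ≃ₗ[F] B)) :
    nc_Phi (nc_Psi d₀ h) = nc_Phi d₀ := by
  ext v
  simp [nc_Phi, nc_S, nc_Psi]

theorem nc_Psi_inj (d₀ : nc_D F A B V) : Function.Injective (nc_Psi d₀) := by
  intro h h' hh
  have h1 : (h.1.prodCongr h.2).trans d₀.1 = (h'.1.prodCongr h'.2).trans d₀.1 :=
    congrArg Prod.fst hh
  have h2 : ∀ z : A × B, (h.1 z.1, h.2 z.2) = (h'.1 z.1, h'.2 z.2) := by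
    intro z
    have := congrArg (fun e : (A × B) ≃ₗ[F] V => e z) h1
    simp only [LinearEquiv.trans_apply, LinearEquiv.prodCongr_apply] at this
    exact d₀.1.injective this
  apply Prod.ext
  · ext a
    exact (Prod.ext_iff.mp (h2 (a, 0))).1
  · ext b
    exact (Prod.ext_iff.mp (h2 (0, b))).2

end blocks

end Cfsg.Agent.Helper19
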