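import Cfsg.Agent.Helper19.NilCount2

set_option autoImplicit false

namespace Cfsg.Agent.Helper19

open Module

universe u v w x

section blocks
variable {F : Type u} [Field F] {A : Type v} {B : Type w} {V : Type x}
  [AddCommGroup A] [Module F A] [AddCommGroup B] [Module F B] [AddCommGroup V] [Module F V]

theorem nc_Psi_surj [FiniteDimensional F A] [FiniteDimensional F B]
    (d₀ d : nc_D F A B V) (hd : nc_Phi d = nc_Phi d₀) :
    ∃ h : (A ≃ₗ[F] A) × (B ≃ₗ[F] B), nc_Psi d₀ h = d := by
  obtain ⟨φ₀, ⟨N₀, hN₀⟩, U₀⟩ := d₀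
  obtain ⟨φ, ⟨N, hN⟩, U⟩ := d
  obtain ⟨g, hg⟩ : ∃ g : (A × B) ≃ₗ[F] (A × B), g = φ.trans φ₀.symm := ⟨_, rfl⟩
  have hg1 : ∀ z, φ₀ (g z) = φ z := by intro z; rw [hg]; simp
  have hint : ∀ x y, g (N x, U y) = (N₀ (g (x, y)).1, U₀ (g (x, y)).2) := by
    intro x y
    have h1 := congrArg (fun T : Module.End F V => T (φ (x, y))) hd
    have h2 := nc_Phi_apply (⟨φ, ⟨N, hN⟩, U⟩ : nc_D F A B V) (x, y)
    have h3 := nc_Phi_apply (⟨φ₀, ⟨N₀, hN₀⟩, U₀⟩ : nc_D F A B V) (g (x, y))
    simp only at h1 h2 h3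
    rw [hg1] at h3
    rw [h2, h3] at h1
    apply φ₀.injective
    rw [hg1, h1]
  -- off-diagonal blocks vanish
  have hb : ∀ y : B, (g (0, y)).1 = 0 := by
    have hb1 : ∀ y : B, (g (0, U y)).1 = N₀ (g (0, y)).1 := by
      intro y
      have := hint 0 y
      rw [map_zero] at this
      rw [this]
    have hb2 : ∀ m : ℕ, ∀ y : B, ∃ y' : B, (g (0, y)).1 = (N₀ ^ m) (g (0, y')).1 := by
      intro m
      induction m with
      | zero => intro y; exact ⟨y, by simp⟩
      | succ m ih =>
        intro y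
        obtain ⟨y', hy'⟩ := ih y
        refine ⟨U.symm y', ?_⟩
        rw [hy', pow_succ, Module.End.mul_apply, ← hb1, LinearEquiv.apply_symm_apply]
    obtain ⟨m, hm⟩ := hN₀
    intro y
    obtain ⟨y', hy'⟩ := hb2 m y
    rw [hy', hm, LinearMap.zero_apply]
  have hc : ∀ x : A, (g (x, 0)).2 = 0 := by
    have hc1 : ∀ x : A, (g (N x, 0)).2 = U₀ (g (x, 0)).2 := by
      intro x
      have := hint x 0
      rw [map_zero] at this
      rw [this]
    have hc2 : ∀ m : ℕ, ∀ x : A, (g ((N ^ m) x, 0)).2 = 0 → (g (x, 0)).2 = 0 := by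
      intro m
      induction m with
      | zero => intro x hx; simpa using hx
      | succ m ih =>
        intro x hx
        apply ih
        rw [pow_succ', Module.End.mul_apply, hc1] at hx
        apply U₀.injective
        rw [hx, map_zero]
    obtain ⟨m, hm⟩ := hN
    intro x
    apply hc2 m
    rw [hm, LinearMap.zero_apply, ← Prod.zero_eq_mk, map_zero]
    rfl
  have hgz : ∀ z : A × B, g z = ((g (z.1, 0)).1, (g (0, z.2)).2) := by
    intro z
    have h1 : z = (z.1, 0) + (0, z.2) := by simp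
    conv_lhs => rw [h1, map_add]
    apply Prod.ext
    · simp [hb]
    · simp [hc]
  obtain ⟨aL, haL⟩ : ∃ aL : A →ₗ[F] A, aL =
      LinearMap.fst F A B ∘ₗ g.toLinearMap ∘ₗ LinearMap.inl F A B := ⟨_, rfl⟩
  obtain ⟨dL, hdL⟩ : ∃ dL : B →ₗ[F] B, dL =
      LinearMap.snd F A B ∘ₗ g.toLinearMap ∘ₗ LinearMap.inr F A B := ⟨_, rfl⟩
  have haL1 : ∀ x, aL x = (g (x, 0)).1 := by intro x; rw [haL]; simp
  have hdL1 : ∀ y, dL y = (g (0, y)).2 := by intro y; rw [hdL]; simp
  have hainj : Function.Injective aL := by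
    rw [← LinearMap.ker_eq_bot, LinearMap.ker_eq_bot']
    intro x hx
    have h1 : g (x, 0) = 0 := by
      rw [hgz]
      apply Prod.ext
      · simp only; rw [← haL1, hx]; rfl
      · simp only; rw [hc]; rfl
    have h2 : ((x, 0) : A × B) = 0 := by
      apply g.injective
      rw [h1, map_zero]
    exact (Prod.ext_iff.mp h2).1
  have hdinj : Function.Injective dL := by
    rw [← LinearMap.ker_eq_bot, LinearMap.ker_eq_bot']
    intro y hy
    have h1 : g (0, y) = 0 := by
      rw [hgz]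
      apply Prod.ext
      · simp only; rw [hb]; rfl
      · simp only; rw [← hdL1, hy]; rfl
    have h2 : ((0, y) : A × B) = 0 := by
      apply g.injective
      rw [h1, map_zero]
    exact (Prod.ext_iff.mp h2).2
  refine ⟨(LinearEquiv.ofInjectiveEndo aL hainj, LinearEquiv.ofInjectiveEndo dL hdinj), ?_⟩
  have hgz' : ∀ z : A × B, g z = (aL z.1, dL z.2) := by
    intro z; rw [hgz, haL1, hdL1]
  apply Prod.ext
  · apply LinearEquiv.ext
    intro z
    simp only [nc_Psi, LinearEquiv.trans_apply, LinearEquiv.prodCongr_apply,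
      LinearEquiv.coe_ofInjectiveEndo]
    rw [← hg1, hgz']
  · apply Prod.ext
    · apply Subtype.ext
      apply LinearMap.ext
      intro x
      simp only [nc_Psi, LinearMap.comp_apply, LinearEquiv.coe_coe]
      rw [LinearEquiv.symm_apply_eq]
      simp only [LinearEquiv.coe_ofInjectiveEndo]
      have := congrArg Prod.fst (hint x 0)
      simp only at this
      rw [haL1, haL1, ← this, map_zero]
    · apply LinearEquiv.ext
      intro y
      simp only [nc_Psi, LinearEquiv.trans_apply]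
      rw [LinearEquiv.symm_apply_eq]
      simp only [LinearEquiv.coe_ofInjectiveEndo]
      have := congrArg Prod.snd (hint 0 y)
      simp only at this
      rw [hdL1, hdL1, ← this, map_zero]

end blocks

theorem nc_count_fibers {D : Type u} {E : Type v} {H : Type w} [Finite D] [Finite H]
    (f : D → E) (Ψ : D → H → D)
    (h1 : ∀ d₀ h, f (Ψ d₀ h) = f d₀) (h2 : ∀ d₀, Function.Injective (Ψ d₀))
    (h3 : ∀ d₀ d, f d = f d₀ → ∃ h, Ψ d₀ h = d) :
    Nat.card D = Nat.card (Set.range f) * Nat.card H := by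
  classical
  have : Fintype (Set.range f) := Fintype.ofFinite _
  have hfib : ∀ e : Set.range f,
      Nat.card {d : D // Set.rangeFactorization f d = e} = Nat.card H := by
    rintro ⟨e, d₀, rfl⟩
    symm
    apply Nat.card_eq_of_bijective (fun h => (⟨Ψ d₀ h, Subtype.ext (h1 d₀ h)⟩ :
      {d : D // Set.rangeFactorization f d = ⟨f d₀, d₀, rfl⟩}))
    constructor
    · intro h h' hh
      exact h2 d₀ (congrArg Subtype.val hh)
    · rintro ⟨d, hd⟩
      obtain ⟨h, hh⟩ := h3 d₀ d (congrArg Subtype.val hd)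
      exact ⟨h, Subtype.ext hh⟩
  rw [← Nat.card_congr (Equiv.sigmaFiberEquiv (Set.rangeFactorization f)), Nat.card_sigma]
  simp only [hfib]
  simp [Nat.card_eq_fintype_card]

end Cfsg.Agent.Helper19
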