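import Cfsg.Agent.Helper19.NilCount3

set_option autoImplicit false

namespace Cfsg.Agent.Helper19

open Module

universe u v w x

section main
variable {F : Type u} [Field F] {A : Type v} {B : Type w} {V : Type x}
  [AddCommGroup A] [Module F A] [AddCommGroup B] [Module F B] [AddCommGroup V] [Module F V]
  [FiniteDimensional F A] [FiniteDimensional F B] [FiniteDimensional F V]

theorem nc_range_Phi (hdim : finrank F V = finrank F A + finrank F B) :
    Set.range (nc_Phi : nc_D F A B V → Module.End F V)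
      = {T | finrank F (nc_K T) = finrank F A} := by
  ext T
  constructor
  · rintro ⟨d, rfl⟩
    exact nc_finrank_K_Phi d hdim
  · intro hT
    have hT : finrank F (nc_K T) = finrank F A := hT
    have hI : finrank F (nc_I T) = finrank F B := by
      have := nc_finrank_add T
      omega
    obtain ⟨a⟩ : Nonempty (A ≃ₗ[F] nc_K T) :=
      FiniteDimensional.nonempty_linearEquiv_of_finrank_eq hT.symm
    obtain ⟨b⟩ : Nonempty (B ≃ₗ[F] nc_I T) :=
      FiniteDimensional.nonempty_linearEquiv_of_finrank_eq hI.symm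
    obtain ⟨φ, hφ⟩ : ∃ φ : (A × B) ≃ₗ[F] V, φ = (a.prodCongr b).trans
        (Submodule.prodEquivOfIsCompl _ _ (nc_isCompl T)) := ⟨_, rfl⟩
    have hφ1 : ∀ z : A × B, φ z = (a z.1 : V) + (b z.2 : V) := by
      intro z; rw [hφ]; simp [Submodule.coe_prodEquivOfIsCompl']
    obtain ⟨R, hR⟩ : ∃ R : Module.End F (nc_K T), R = T.restrict (nc_map_K T) := ⟨_, rfl⟩
    obtain ⟨N, hNdef⟩ : ∃ N : Module.End F A,
        N = a.symm.toLinearMap ∘ₗ R ∘ₗ a.toLinearMap := ⟨_, rfl⟩
    have hN : IsNilpotent N := by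
      refine ⟨finrank F V, ?_⟩
      have h := nc_intertwine_pow N R a.symm.toLinearMap (by rw [hNdef]; ext z; simp)
        (finrank F V)
      rw [hR, nc_restrict_K_pow] at h
      ext z
      have := congrArg (fun L : nc_K T →ₗ[F] A => L (a z)) h
      simpa using this
    obtain ⟨U, hU⟩ : ∃ U : B ≃ₗ[F] B, U = (b.trans (LinearEquiv.ofInjectiveEndo
        (T.restrict (nc_map_I T)) (nc_restrict_I_inj T))).trans b.symm := ⟨_, rfl⟩
    refine ⟨(φ, ⟨N, hN⟩, U), ?_⟩
    apply LinearMap.ext
    intro v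
    obtain ⟨z, rfl⟩ := φ.surjective v
    rw [nc_Phi_apply]
    simp only
    rw [hφ1, hφ1, map_add, hNdef, hU, hR]
    simp

theorem nc_main_count [Finite A] [Finite B] [Finite V]
    (hdim : finrank F V = finrank F A + finrank F B) :
    Nat.card ((A × B) ≃ₗ[F] V) *
        (Nat.card {N : Module.End F A // IsNilpotent N} * Nat.card (B ≃ₗ[F] B))
      = Nat.card {T : Module.End F V // finrank F (nc_K T) = finrank F A} *
        (Nat.card (A ≃ₗ[F] A) * Nat.card (B ≃ₗ[F] B)) := by
  haveI : Finite ((A × B) ≃ₗ[F] V) := DFunLike.finite _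
  haveI : Finite (Module.End F A) := DFunLike.finite _
  haveI : Finite (A ≃ₗ[F] A) := DFunLike.finite _
  haveI : Finite (B ≃ₗ[F] B) := DFunLike.finite _
  have h := nc_count_fibers (nc_Phi : nc_D F A B V → Module.End F V) nc_Psi nc_Psi_fiber
    nc_Psi_inj (fun d₀ d hd => nc_Psi_surj d₀ d hd)
  rw [nc_range_Phi hdim] at h
  rw [Nat.card_prod, Nat.card_prod, Nat.card_prod] at h
  exact h

end main

end Cfsg.Agent.Helper19
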