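import Cfsg.Agent.Helper19.NilCount4

set_option autoImplicit false

namespace Cfsg.Agent.Helper19

open Module

section final

/-- number of nilpotent endomorphisms of `F^n` -/
noncomputable def nc_Nn (F : Type*) [Field F] (n : ℕ) : ℕ :=
  Nat.card {N : Module.End F (Fin n → F) // IsNilpotent N}

/-- number of endomorphisms of `F^n` with Fitting kernel of dimension `k` -/
noncomputable def nc_E (F : Type*) [Field F] (n k : ℕ) : ℕ :=
  Nat.card {T : Module.End F (Fin n → F) // finrank F (nc_K T) = k}

/-- order of `GL_n(F)` -/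
noncomputable def nc_G (F : Type*) [Field F] (n : ℕ) : ℕ :=
  Nat.card (Matrix.GeneralLinearGroup (Fin n) F)

variable {F : Type*} [Field F] [Fintype F]

theorem nc_card_aut (k : ℕ) : Nat.card ((Fin k → F) ≃ₗ[F] (Fin k → F)) = nc_G F k :=
  (Nat.card_congr ((Matrix.GeneralLinearGroup.toLin.trans
    (LinearMap.GeneralLinearGroup.generalLinearEquiv F (Fin k → F))).toEquiv)).symm

theorem nc_card_iso (k m n : ℕ) (h : n = k + m) :
    Nat.card (((Fin k → F) × (Fin m → F)) ≃ₗ[F] (Fin n → F)) = nc_G F n := by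
  obtain ⟨φ₀⟩ : Nonempty (((Fin k → F) × (Fin m → F)) ≃ₗ[F] (Fin n → F)) :=
    FiniteDimensional.nonempty_linearEquiv_of_finrank_eq (by simp [h])
  rw [← nc_card_aut]
  apply Nat.card_congr
  exact { toFun := fun ψ => φ₀.symm.trans ψ
          invFun := fun χ => φ₀.trans χ
          left_inv := fun ψ => by ext z; simp
          right_inv := fun χ => by ext z; simp }

theorem nc_G_pos (n : ℕ) : 0 < nc_G F n := by
  unfold nc_G
  exact Nat.card_pos

theorem nc_rel (n k : ℕ) (hk : k ≤ n) : nc_G F n * nc_Nn F k = nc_E F n k * nc_G F k := by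
  obtain ⟨m, rfl⟩ := Nat.exists_eq_add_of_le hk
  have h := nc_main_count (F := F) (A := Fin k → F) (B := Fin m → F) (V := Fin (k + m) → F)
    (by simp)
  rw [nc_card_iso k m (k + m) rfl, nc_card_aut, nc_card_aut] at h
  simp only [Module.finrank_fintype_fun_eq_card, Fintype.card_fin] at h
  have h' : (nc_G F (k + m) * nc_Nn F k) * nc_G F m = (nc_E F (k + m) k * nc_G F k) * nc_G F m := by
    unfold nc_Nn nc_E
    rw [← mul_assoc, ← mul_assoc] at h
    exact h
  exact Nat.eq_of_mul_eq_mul_right (nc_G_pos m) h'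

theorem nc_sum (n : ℕ) :
    ∑ k ∈ Finset.range (n + 1), nc_E F n k = Fintype.card F ^ (n * n) := by
  classical
  haveI : Finite (Module.End F (Fin n → F)) := DFunLike.finite _
  haveI : Fintype (Module.End F (Fin n → F)) := Fintype.ofFinite _
  have h1 : Fintype.card (Module.End F (Fin n → F)) = Fintype.card F ^ (n * n) := by
    rw [← Nat.card_eq_fintype_card, Module.natCard_eq_pow_finrank (K := F),
      Module.finrank_linearMap]
    simp
  rw [← h1, ← Finset.card_univ]
  rw [Finset.card_eq_sum_card_fiberwise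
    (f := fun T : Module.End F (Fin n → F) => finrank F (nc_K T)) (t := Finset.range (n + 1))]
  · apply Finset.sum_congr rfl
    intro k _
    unfold nc_E
    rw [Nat.card_eq_fintype_card, Fintype.card_subtype]
  · intro T _
    rw [Finset.mem_coe, Finset.mem_range]
    have := Submodule.finrank_le (nc_K T)
    simp only [Module.finrank_fintype_fun_eq_card, Fintype.card_fin] at this
    show finrank F (nc_K T) < n + 1
    omega

theorem nc_G_succ (n : ℕ) :
    nc_G F (n + 1) = nc_G F n * ((Fintype.card F ^ (n + 1) - 1) * Fintype.card F ^ n) := by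
  unfold nc_G
  rw [Matrix.card_GL_field, Matrix.card_GL_field, Fin.prod_univ_succ]
  have h1 : ∀ i : Fin n, Fintype.card F ^ (n + 1) - Fintype.card F ^ ((Fin.succ i : Fin (n + 1)) : ℕ)
      = Fintype.card F * (Fintype.card F ^ n - Fintype.card F ^ (i : ℕ)) := by
    intro i
    rw [Nat.mul_sub, Fin.val_succ, pow_succ', pow_succ']
  simp only [h1, Finset.prod_mul_distrib, Finset.prod_const, Finset.card_univ, Fintype.card_fin,
    Fin.val_zero, pow_zero]
  ring

theorem nc_E_top (n : ℕ) : nc_E F n n = nc_Nn F n := by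
  have h := nc_rel (F := F) n n le_rfl
  rw [mul_comm] at h
  exact (Nat.eq_of_mul_eq_mul_right (nc_G_pos n) h).symm

theorem nc_E_succ (m k : ℕ) (hk : k ≤ m) :
    nc_E F (m + 1) k = (Fintype.card F ^ (m + 1) - 1) * Fintype.card F ^ m * nc_E F m k := by
  have h1 := nc_rel (F := F) (m + 1) k (by omega)
  have h2 := nc_rel (F := F) m k hk
  rw [nc_G_succ] at h1
  have h3 : nc_E F (m + 1) k * nc_G F k
      = ((Fintype.card F ^ (m + 1) - 1) * Fintype.card F ^ m * nc_E F m k) * nc_G F k := by
    rw [← h1, mul_assoc ((Fintype.card F ^ (m + 1) - 1) * Fintype.card F ^ m), ← h2]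
    ring
  exact Nat.eq_of_mul_eq_mul_right (nc_G_pos k) h3

theorem nc_Nn_eq (n : ℕ) : nc_Nn F n = Fintype.card F ^ (n * (n - 1)) := by
  rcases n with _ | m
  · have h := nc_sum (F := F) 0
    rw [Finset.sum_range_one, nc_E_top] at h
    rw [h]
  · have h := nc_sum (F := F) (m + 1)
    rw [Finset.sum_range_succ, nc_E_top] at h
    have h2 : ∑ k ∈ Finset.range (m + 1), nc_E F (m + 1) k
        = (Fintype.card F ^ (m + 1) - 1) * Fintype.card F ^ m * Fintype.card F ^ (m * m) := by
      rw [← nc_sum (F := F) m, Finset.mul_sum]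
      apply Finset.sum_congr rfl
      intro k hk
      rw [Finset.mem_range] at hk
      exact nc_E_succ m k (by omega)
    rw [h2] at h
    have hq : 1 ≤ Fintype.card F ^ (m + 1) := Nat.one_le_pow _ _ Fintype.card_pos
    have h3 : (Fintype.card F ^ (m + 1) - 1) * Fintype.card F ^ m * Fintype.card F ^ (m * m)
        + Fintype.card F ^ ((m + 1) * (m + 1 - 1)) = Fintype.card F ^ ((m + 1) * (m + 1)) := by
      have e1 : (m + 1) * (m + 1 - 1) = m + m * m := by
        rw [Nat.add_sub_cancel]; ring
      have e2 : (m + 1) * (m + 1) = (m + 1) + (m + m * m) := by ring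
      rw [e1, e2, mul_assoc, ← pow_add, pow_add (Fintype.card F) (m + 1) (m + m * m)]
      obtain ⟨c, hc⟩ := Nat.exists_eq_add_of_le hq
      rw [hc]
      rw [Nat.add_sub_cancel_left]
      ring
    omega

end final

end Cfsg.Agent.Helper19
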