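import Cfsg.Agent.Helper19.NilCount5

set_option autoImplicit false

namespace Cfsg.Agent.Helper19

open Module

theorem nc_unip_iff {F : Type*} [Field F] (p : ℕ) [Fact p.Prime] [CharP F p] (n : ℕ)
    (g : Matrix.GeneralLinearGroup (Fin n) F) :
    (∃ k : ℕ, orderOf g = p ^ k) ↔ IsNilpotent ((g : Matrix (Fin n) (Fin n) F) - 1) := by
  rcases Nat.eq_zero_or_pos n with hn | hn
  · subst hn
    constructor
    · intro _; exact ⟨1, Subsingleton.elim _ _⟩
    · intro _
      refine ⟨0, ?_⟩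
      rw [pow_zero, orderOf_eq_one_iff]
      exact Subsingleton.elim _ _
  · haveI : Nonempty (Fin n) := ⟨⟨0, hn⟩⟩
    constructor
    · rintro ⟨k, hk⟩
      refine ⟨p ^ k, ?_⟩
      rw [sub_pow_char_pow_of_commute p k (Commute.one_right _), one_pow,
        ← Units.val_pow_eq_pow_val, ← hk, pow_orderOf_eq_one]
      simp
    · rintro ⟨j, hj⟩
      have hj' : ((g : Matrix (Fin n) (Fin n) F) - 1) ^ (p ^ j) = 0 := by
        have : j ≤ p ^ j := (Nat.lt_pow_self (Fact.out : p.Prime).one_lt).le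
        obtain ⟨c, hc⟩ := Nat.exists_eq_add_of_le this
        rw [hc, pow_add, hj, zero_mul]
      rw [sub_pow_char_pow_of_commute p j (Commute.one_right _), one_pow, sub_eq_zero,
        ← Units.val_pow_eq_pow_val] at hj'
      have h1 : g ^ (p ^ j) = 1 := Units.ext hj'
      have h2 : orderOf g ∣ p ^ j := orderOf_dvd_of_pow_eq_one h1
      obtain ⟨i, _, hi⟩ := (Nat.dvd_prime_pow (Fact.out : p.Prime)).mp h2
      exact ⟨i, hi⟩

theorem nc_unip_card {F : Type*} [Field F] [Fintype F] (p : ℕ) [Fact p.Prime] [CharP F p]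
    (n : ℕ) :
    Nat.card {g : Matrix.GeneralLinearGroup (Fin n) F // ∃ k : ℕ, orderOf g = p ^ k}
      = nc_Nn F n := by
  unfold nc_Nn
  rw [Nat.card_congr (Equiv.subtypeEquivRight (nc_unip_iff p n))]
  have h2 : Nat.card {g : Matrix.GeneralLinearGroup (Fin n) F //
      IsNilpotent ((g : Matrix (Fin n) (Fin n) F) - 1)}
      = Nat.card {M : Matrix (Fin n) (Fin n) F // IsNilpotent M} := by
    apply Nat.card_eq_of_bijective
      (fun g : {g : Matrix.GeneralLinearGroup (Fin n) F //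
        IsNilpotent ((g : Matrix (Fin n) (Fin n) F) - 1)} =>
        (⟨(g.1 : Matrix (Fin n) (Fin n) F) - 1, g.2⟩ :
          {M : Matrix (Fin n) (Fin n) F // IsNilpotent M}))
    constructor
    · rintro ⟨g, hg⟩ ⟨g', hg'⟩ h
      have h1 : (g : Matrix (Fin n) (Fin n) F) - 1 = (g' : Matrix (Fin n) (Fin n) F) - 1 :=
        congrArg Subtype.val h
      exact Subtype.ext (Units.ext (sub_left_inj.mp h1))
    · rintro ⟨M, hM⟩
      have hu : ((hM.isUnit_add_one.unit : Matrix.GeneralLinearGroup (Fin n) F) :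
          Matrix (Fin n) (Fin n) F) - 1 = M := by
        rw [IsUnit.unit_spec]; simp
      exact ⟨⟨hM.isUnit_add_one.unit, by rw [hu]; exact hM⟩, Subtype.ext hu⟩
  rw [h2]
  exact Nat.card_congr (Equiv.subtypeEquiv
    (Matrix.toLinAlgEquiv' (R := F) (n := Fin n)).toEquiv
    (fun M => (IsNilpotent.map_iff (AlgEquiv.injective _)).symm))

theorem nc_unip_count {F : Type*} [Field F] [Fintype F] (p : ℕ) [Fact p.Prime] [CharP F p]
    (n : ℕ) :
    Nat.card {g : Matrix.GeneralLinearGroup (Fin n) F // ∃ k : ℕ, orderOf g = p ^ k}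
      = Fintype.card F ^ (n * (n - 1)) := by
  rw [nc_unip_card p n, nc_Nn_eq]

end Cfsg.Agent.Helper19
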