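import Mathlib
import Cfsg.Agent.S0961
import Cfsg.Agent.Helper10.VirtualChar
import Cfsg.Agent.Helper2.CharOrtho
import Cfsg.Agent.Helper2.CharGalois
import Cfsg.Agent.Helper2.CharIntegral
import Cfsg.Agent.Helper2.CharLinear
import Cfsg.Agent.Helper24.CharInv

/-!
The `p`-regular truncation of an irreducible character `χ`, scaled by `|G|_p / χ(1)_p`, is a
generalized character, and no smaller power of `p` works.
-/

set_option autoImplicit false

namespace Cfsg.Agent.Helper19

open Cfsg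
open scoped ComplexConjugate

universe u

theorem gch_orderOf_conj {G : Type*} [Group G] (g h : G) :
    orderOf (h * g * h⁻¹) = orderOf g := by
  have h1 : h * g * h⁻¹ = MulAut.conj h g := by simp [MulAut.conj_apply]
  rw [h1, MulEquiv.orderOf_eq]

/-- A class function with integer inner products with all irreducible characters is a
generalized character. -/
theorem gch_of_classInner_int {G : Type u} [Group G] [Fintype G] {ψ : G → ℂ}
    (hψ : IsClassFunction G ψ)
    (h : ∀ ξ : G → ℂ, IsIrrCharacter G ξ → ∃ z : ℤ, classInner ψ ξ = (z : ℂ)) :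
    IsGeneralizedCharacter G ψ := by
  classical
  have := Helper24.finite_irrCharacter (G := G)
  have := Fintype.ofFinite (IrrCharacter G)
  choose z hz using fun ξ : IrrCharacter G => h ξ.1 ξ.2
  refine ⟨∑ ξ : IrrCharacter G, (z ξ).toNat • (ξ : G → ℂ),
    ∑ ξ : IrrCharacter G, (- z ξ).toNat • (ξ : G → ℂ), ?_, ?_, ?_⟩
  · exact Helper2.isCharacter_sum _ _ fun ξ _ =>
      Helper2.IsCharacter.nsmul (Helper24.isCharacter_of_irr ξ.2) _
  · exact Helper2.isCharacter_sum _ _ fun ξ _ =>
      Helper2.IsCharacter.nsmul (Helper24.isCharacter_of_irr ξ.2) _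
  · have hexp := Helper2.class_fn_expansion hψ
    rw [← Finset.sum_sub_distrib]
    conv_lhs => rw [hexp]
    refine Finset.sum_congr rfl fun ξ _ => ?_
    rw [hz ξ]
    funext g
    have h1 : (z ξ : ℂ) = ((z ξ).toNat : ℂ) - ((- z ξ).toNat : ℂ) := by
      have := Int.toNat_sub_toNat_neg (z ξ)
      exact_mod_cast this.symm
    simp only [Pi.smul_apply, Pi.sub_apply, smul_eq_mul, nsmul_eq_mul, Pi.mul_apply,
      Pi.natCast_apply]
    rw [h1]
    ring

/-- Integrality of central characters, phrased with `charDegree`. -/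
theorem gch_central_integral {G : Type u} [Group G] [Fintype G] {χ : G → ℂ}
    (hχ : IsIrrCharacter G χ) (g : G) :
    IsIntegral ℤ ((Nat.card {x : G // IsConj x g} : ℂ) * χ g / (charDegree χ : ℂ)) := by
  have hspec := Helper24.charDegree_spec (Helper24.isCharacter_of_irr hχ)
  obtain ⟨n, ρ, hρ, rfl⟩ := hχ
  haveI := hρ
  have h := Helper2.isIntegral_card_conj_mul_char_div ρ g
  rw [Module.finrank_fintype_fun_eq_card, Fintype.card_fin] at h
  have h1 : ρ.character 1 = (n : ℂ) := by
    rw [Representation.char_one]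
    simp
  rw [h1] at hspec
  have : n = charDegree ρ.character := by exact_mod_cast hspec
  rwa [← this]

theorem gch_sum_integral {G : Type u} [Group G] [Fintype G] (p : ℕ) {χ ξ : G → ℂ}
    (hχ : IsIrrCharacter G χ) (hξ : IsCharacter G ξ) :
    IsIntegral ℤ ((∑ x : G, (if p ∣ orderOf x then (0 : ℂ) else χ x) * conj (ξ x)) /
      (charDegree χ : ℂ)) := by
  classical
  have := Fintype.ofFinite (ConjClasses G)
  have hχc := Helper24.isCharacter_of_irr hχ
  have hcf : IsClassFunction G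
      (fun x => (if p ∣ orderOf x then (0 : ℂ) else χ x) * conj (ξ x)) := by
    intro g h
    show (if p ∣ orderOf (h * g * h⁻¹) then (0 : ℂ) else χ (h * g * h⁻¹)) *
      conj (ξ (h * g * h⁻¹)) = _
    rw [gch_orderOf_conj, Helper2.IsCharacter.isClassFunction hχc g h,
      Helper2.IsCharacter.isClassFunction hξ g h]
  rw [Helper2.sum_eq_sum_conjClasses _ hcf, Finset.sum_div]
  refine IsIntegral.sum _ fun C _ => ?_
  by_cases hC : p ∣ orderOf (Quotient.out C)
  · have e : (Nat.card {x : G // IsConj x (Quotient.out C)} : ℂ) *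
        ((if p ∣ orderOf (Quotient.out C) then (0 : ℂ) else χ (Quotient.out C)) *
          conj (ξ (Quotient.out C))) / (charDegree χ : ℂ) = 0 := by
      rw [if_pos hC]
      ring
    rw [e]
    exact isIntegral_zero
  · have e : (Nat.card {x : G // IsConj x (Quotient.out C)} : ℂ) *
        ((if p ∣ orderOf (Quotient.out C) then (0 : ℂ) else χ (Quotient.out C)) *
          conj (ξ (Quotient.out C))) / (charDegree χ : ℂ) =
        ((Nat.card {x : G // IsConj x (Quotient.out C)} : ℂ) * χ (Quotient.out C) /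
          (charDegree χ : ℂ)) * ξ (Quotient.out C)⁻¹ := by
      rw [if_neg hC, Helper24.char_inv hξ]
      ring
    rw [e]
    exact IsIntegral.mul (gch_central_integral hχ _) (Helper2.IsCharacter.isIntegral hξ _)

theorem gch_part1 {G : Type u} [Group G] [Fintype G] (p : ℕ) [hpf : Fact p.Prime]
    (χ : G → ℂ) (hχ : IsIrrCharacter G χ) :
    IsGeneralizedCharacter G (fun x : G => if p ∣ orderOf x then (0 : ℂ) else
      ((p ^ ((Nat.card G).factorization p - (charDegree χ).factorization p) : ℕ) : ℂ) * χ x) := by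
  classical
  have hp := hpf.out
  have hχc := Helper24.isCharacter_of_irr hχ
  obtain ⟨a, ha⟩ : ∃ a : ℕ, a = (Nat.card G).factorization p := ⟨_, rfl⟩
  obtain ⟨b, hb⟩ : ∃ b : ℕ, b = (charDegree χ).factorization p := ⟨_, rfl⟩
  rw [← ha, ← hb]
  have hdvd := Helper2.irr_degree_dvd_card hχ
  have hdpos := Helper24.irr_degree_pos hχ
  have hNpos : 0 < Nat.card G := Nat.card_pos
  have hba : b ≤ a := by
    rw [ha, hb]
    exact (Nat.factorization_le_iff_dvd hdpos.ne' hNpos.ne').mpr hdvd p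
  have h0 := Cfsg.Agent.Helper6.PRegChar.p_regular_gen_char p χ hχc
  rw [← ha] at h0
  obtain ⟨ψ, hψdef⟩ : ∃ ψ : G → ℂ, ψ = fun x : G => if p ∣ orderOf x then (0 : ℂ) else
    ((p ^ (a - b) : ℕ) : ℂ) * χ x := ⟨_, rfl⟩
  rw [← hψdef]
  have h0' : (fun x : G => if p ∣ orderOf x then (0 : ℂ) else ((p ^ a : ℕ) : ℂ) * χ x) =
      ((p ^ b : ℕ) : ℂ) • ψ := by
    funext x
    rw [hψdef, Pi.smul_apply, smul_eq_mul]
    split_ifs
    · rw [mul_zero]
    · have : p ^ a = p ^ b * p ^ (a - b) := by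
        rw [← pow_add]
        congr 1
        omega
      rw [this]
      push_cast
      ring
  rw [h0'] at h0
  have hcfχ := Helper2.IsCharacter.isClassFunction hχc
  have hψcf : IsClassFunction G ψ := by
    intro g h
    rw [hψdef]
    show (if p ∣ orderOf (h * g * h⁻¹) then (0 : ℂ) else _ * χ (h * g * h⁻¹)) = _
    rw [gch_orderOf_conj, hcfχ g h]
  apply gch_of_classInner_int hψcf
  intro ξ hξ
  have hξc := Helper24.isCharacter_of_irr hξ
  obtain ⟨z, hz⟩ := Helper10.classInner_gen_irr h0 hξ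
  rw [Helper2.classInner_smul_left] at hz
  have hw := gch_sum_integral p hχ hξc
  have hN0 : (Nat.card G : ℂ) ≠ 0 := by exact_mod_cast hNpos.ne'
  have hd0 : (charDegree χ : ℂ) ≠ 0 := by exact_mod_cast hdpos.ne'
  have hp0 : (p : ℂ) ≠ 0 := by exact_mod_cast hp.ne_zero
  have hrel : (Nat.card G : ℂ) * classInner ψ ξ = ((p ^ (a - b) : ℕ) : ℂ) *
      ∑ x : G, (if p ∣ orderOf x then (0 : ℂ) else χ x) * conj (ξ x) := by
    unfold classInner
    rw [← mul_assoc, mul_inv_cancel₀ hN0, one_mul, Finset.mul_sum]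
    refine Finset.sum_congr rfl fun x _ => ?_
    rw [hψdef]
    show (if p ∣ orderOf x then (0 : ℂ) else ((p ^ (a - b) : ℕ) : ℂ) * χ x) * conj (ξ x) = _
    split_ifs <;> ring
  -- the sum divided by the degree is rational, hence an integer
  have hq : (∑ x : G, (if p ∣ orderOf x then (0 : ℂ) else χ x) * conj (ξ x)) /
      (charDegree χ : ℂ) =
      ((((Nat.card G : ℚ) * (z : ℚ)) / ((p : ℚ) ^ a * (charDegree χ : ℚ)) : ℚ) : ℂ) := by
    have hpa : ((p ^ (a - b) : ℕ) : ℂ) * ((p ^ b : ℕ) : ℂ) = (p : ℂ) ^ a := by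
      push_cast
      rw [← pow_add]
      congr 1
      omega
    have hpb : ((p ^ b : ℕ) : ℂ) ≠ 0 := by
      push_cast
      exact pow_ne_zero _ hp0
    have hpab : ((p ^ (a - b) : ℕ) : ℂ) ≠ 0 := by
      push_cast
      exact pow_ne_zero _ hp0
    have hpa0 : (p : ℂ) ^ a ≠ 0 := pow_ne_zero _ hp0
    push_cast
    rw [div_eq_div_iff hd0 (mul_ne_zero hpa0 hd0)]
    have e1 : classInner ψ ξ = (z : ℂ) / ((p ^ b : ℕ) : ℂ) := by
      rw [eq_div_iff hpb, mul_comm]
      exact hz
    rw [e1] at hrel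
    have e2 : (∑ x : G, (if p ∣ orderOf x then (0 : ℂ) else χ x) * conj (ξ x)) =
        (Nat.card G : ℂ) * ((z : ℂ) / ((p ^ b : ℕ) : ℂ)) / ((p ^ (a - b) : ℕ) : ℂ) := by
      rw [eq_div_iff hpab, hrel]
      ring
    rw [e2, ← hpa]
    field_simp
  rw [hq] at hw
  obtain ⟨w, hw'⟩ := Helper2.int_of_isIntegral_rat hw
  have hpaQ : ((p : ℚ) ^ a * (charDegree χ : ℚ)) ≠ 0 := by
    apply mul_ne_zero
    · exact pow_ne_zero _ (by exact_mod_cast hp.ne_zero)
    · exact_mod_cast hdpos.ne'
  rw [div_eq_iff hpaQ] at hw'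
  have hint : (Nat.card G : ℤ) * z = w * ((p : ℤ) ^ a * (charDegree χ : ℤ)) := by
    exact_mod_cast hw'
  -- split off the p-parts
  obtain ⟨g', hg'⟩ : ∃ g' : ℕ, g' = Nat.card G / p ^ a := ⟨_, rfl⟩
  have hNg : Nat.card G = p ^ a * g' := by
    rw [hg', ha]
    exact (Nat.ordProj_mul_ordCompl_eq_self (Nat.card G) p).symm
  have hcop : Nat.Coprime p g' := by
    rw [hg', ha]
    exact Nat.coprime_ordCompl hp hNpos.ne'
  have hpbd : p ^ b ∣ charDegree χ := by
    rw [hb]
    exact Nat.ordProj_dvd _ _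
  have hint2 : (g' : ℤ) * z = w * (charDegree χ : ℤ) := by
    have hpaZ : ((p : ℤ) ^ a) ≠ 0 := pow_ne_zero _ (by exact_mod_cast hp.ne_zero)
    apply mul_left_cancel₀ hpaZ
    rw [hNg] at hint
    push_cast at hint
    linear_combination hint
  have hdz : (p ^ b : ℕ) ∣ z.natAbs := by
    have h1 : ((p ^ b : ℕ) : ℤ) ∣ (g' : ℤ) * z := by
      rw [hint2]
      exact Dvd.dvd.mul_left (Int.natCast_dvd_natCast.mpr hpbd) _
    rw [Int.natCast_dvd, Int.natAbs_mul, Int.natAbs_natCast] at h1
    exact (Nat.Coprime.dvd_mul_left (Nat.Coprime.pow_left b hcop)).mp h1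
  obtain ⟨z', hz'⟩ := Int.natCast_dvd.mpr hdz
  refine ⟨z', ?_⟩
  have hpb : ((p ^ b : ℕ) : ℂ) ≠ 0 := by
    push_cast
    exact pow_ne_zero _ hp0
  apply mul_left_cancel₀ hpb
  rw [hz, hz']
  push_cast
  ring

theorem gch_part2 {G : Type u} [Group G] [Fintype G] (p : ℕ) [hpf : Fact p.Prime]
    (χ : G → ℂ) (hχ : IsIrrCharacter G χ) :
    ¬ IsGeneralizedCharacter G (fun x : G => if p ∣ orderOf x then (0 : ℂ) else
      ((p ^ (Nat.card G).factorization p : ℕ) : ℂ) /
        ((p ^ ((charDegree χ).factorization p + 1) : ℕ) : ℂ) * χ x) := by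
  classical
  intro hgen
  have hp := hpf.out
  have hχc := Helper24.isCharacter_of_irr hχ
  have hdpos := Helper24.irr_degree_pos hχ
  obtain ⟨P⟩ : Nonempty (Sylow p G) := inferInstance
  have := Fintype.ofFinite (P : Subgroup G)
  obtain ⟨c, hc⟩ : ∃ c : ℂ, c = ((p ^ (Nat.card G).factorization p : ℕ) : ℂ) /
        ((p ^ ((charDegree χ).factorization p + 1) : ℕ) : ℂ) := ⟨_, rfl⟩
  rw [← hc] at hgen
  obtain ⟨χ₁, χ₂, h1, h2, heq⟩ := hgen
  have hres : IsGeneralizedCharacter (P : Subgroup G)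
      (fun x : (P : Subgroup G) => if p ∣ orderOf (x : G) then (0 : ℂ) else c * χ (x : G)) :=
    ⟨fun x => χ₁ x, fun x => χ₂ x, Helper24.isCharacter_restrict _ h1,
      Helper24.isCharacter_restrict _ h2, by
        funext x
        have := congrFun heq (x : G)
        simpa using this⟩
  obtain ⟨z, hz⟩ := Helper10.classInner_gen_irr hres Helper2.isIrrCharacter_one_fun
  unfold classInner at hz
  rw [Finset.sum_eq_single (1 : (P : Subgroup G))] at hz
  · have h1' : ¬ p ∣ orderOf (((1 : (P : Subgroup G)) : G)) := by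
      rw [Subgroup.coe_one, orderOf_one, Nat.dvd_one]
      exact hp.ne_one
    dsimp only at hz
    rw [if_neg h1', Subgroup.coe_one, map_one, mul_one, Sylow.card_eq_multiplicity,
      Helper24.charDegree_spec hχc, hc] at hz
    have hp0 : (p : ℂ) ≠ 0 := by exact_mod_cast hp.ne_zero
    have hdz : ((charDegree χ : ℕ) : ℂ) = (z : ℂ) * ((p ^ ((charDegree χ).factorization p + 1) : ℕ) : ℂ) := by
      have ha0 : ((p ^ (Nat.card G).factorization p : ℕ) : ℂ) ≠ 0 := by
        push_cast
        exact pow_ne_zero _ hp0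
      have hb0 : ((p ^ ((charDegree χ).factorization p + 1) : ℕ) : ℂ) ≠ 0 := by
        push_cast
        exact pow_ne_zero _ hp0
      rw [← hz]
      field_simp
    have hdz' : ((charDegree χ : ℕ) : ℤ) = z * ((p ^ ((charDegree χ).factorization p + 1) : ℕ) : ℤ) := by
      exact_mod_cast hdz
    have hdvd : (p ^ ((charDegree χ).factorization p + 1) : ℕ) ∣ charDegree χ := by
      rw [← Int.natCast_dvd_natCast, hdz']
      exact Dvd.intro_left _ rfl
    exact Nat.pow_succ_factorization_not_dvd hdpos.ne' hp hdvd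
  · intro x _ hx
    have hox : p ∣ orderOf (x : G) := by
      obtain ⟨k, hk⟩ := P.isPGroup' x
      have h3 : orderOf x ∣ p ^ k := orderOf_dvd_of_pow_eq_one hk
      obtain ⟨j, hj, hjeq⟩ := (Nat.dvd_prime_pow hp).mp h3
      rw [Subgroup.orderOf_coe, hjeq]
      apply dvd_pow_self
      rintro rfl
      rw [pow_zero, orderOf_eq_one_iff] at hjeq
      exact hx hjeq
    dsimp only
    rw [if_pos hox, zero_mul]
  · intro h
    exact absurd (Finset.mem_univ _) h

end Cfsg.Agent.Helper19
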