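import Mathlib
import Cfsg.Prelude.Def_RootSubgroups
import Cfsg.Prelude.Def_Transfer

/-!
Rank one groups acting quadratically on an abelian group.
-/

set_option autoImplicit false

namespace Cfsg.Agent.Helper19

/-- In a rank one pair, `A` and `B` meet trivially. -/
theorem r1_inf_eq_bot {X : Type*} [Group X] {A B : Subgroup X} (h : Cfsg.IsRankOnePair A B) :
    ∀ x : X, x ∈ A → x ∈ B → x = 1 := by
  intro x hxA hxB
  by_contra hx1
  obtain ⟨a, haA, ha1, hconj⟩ := h.cond_right x hxB hx1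
  have h1 : Cfsg.conjBy A x⁻¹ = A := by
    ext y
    simp only [Cfsg.conjBy, Subgroup.mem_map, MulEquiv.coe_toMonoidHom, MulAut.conj_apply]
    constructor
    · rintro ⟨z, hz, rfl⟩
      exact A.mul_mem (A.mul_mem (A.inv_mem hxA) hz) (by simpa using hxA)
    · intro hy
      exact ⟨x * y * x⁻¹, A.mul_mem (A.mul_mem hxA hy) (A.inv_mem hxA), by group⟩
  rw [h1] at hconj
  apply h.ne
  ext y
  constructor
  · intro hy
    have h2 : a⁻¹ * y * a ∈ Cfsg.conjBy B a⁻¹ := by
      rw [hconj]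
      exact A.mul_mem (A.mul_mem (A.inv_mem haA) hy) haA
    obtain ⟨z, hz, hzy⟩ := h2
    have h3 : a⁻¹ * z * a = a⁻¹ * y * a := by simpa [MulAut.conj_apply] using hzy
    have h4 : z = y := by
      have := mul_right_cancel h3
      exact mul_left_cancel this
    rw [← h4]
    exact hz
  · intro hy
    have h2 : a⁻¹ * y * a ∈ Cfsg.conjBy B a⁻¹ := ⟨y, hy, by simp [MulAut.conj_apply]⟩
    rw [hconj] at h2
    have h3 : y = a * (a⁻¹ * y * a) * a⁻¹ := by group
    rw [h3]
    exact A.mul_mem (A.mul_mem haA h2) (A.inv_mem haA)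

theorem r1_quadratic_torsion {X : Type*} [Group X] {A B : Subgroup X}
    (h : Cfsg.IsRankOneGroup X A B)
    {V : Type*} [AddCommGroup V] [DistribMulAction X V]
    (hf : ∀ x : X, (∀ v : V, x • v = v) → x = 1)
    (hq : ∀ a ∈ A, ∀ a' ∈ A, ∀ v : V, a' • (a • v - v) = a • v - v) :
    (∀ a ∈ A, a ≠ 1 → ¬ IsOfFinOrder a) ∨ ∃ p : ℕ, p.Prime ∧ Cfsg.IsElementaryAbelian p A := by
  obtain ⟨-, hpair⟩ := h
  have hAB := r1_inf_eq_bot hpair
  have hfe : ∀ x y : X, (∀ v : V, x • v = y • v) → x = y := by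
    intro x y hxy
    have h1 : y⁻¹ * x = 1 := hf _ (fun v => by rw [mul_smul, hxy v, inv_smul_smul])
    calc x = y * (y⁻¹ * x) := by group
      _ = y := by rw [h1, mul_one]
  have hadd : ∀ c ∈ A, ∀ c' ∈ A, ∀ v : V,
      (c * c') • v - v = (c • v - v) + (c' • v - v) := by
    intro c hc c' hc' v
    have h1 := hq c' hc' c hc v
    rw [smul_sub] at h1
    rw [mul_smul]
    have h2 : c • c' • v = c' • v - v + c • v := by rw [← h1]; abel
    rw [h2]; abel
  have hpow : ∀ c ∈ A, ∀ n : ℕ, ∀ v : V, (c ^ n) • v - v = n • (c • v - v) := by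
    intro c hc n
    induction n with
    | zero => intro v; simp
    | succ n ih =>
      intro v
      rw [pow_succ, hadd _ (A.pow_mem hc n) _ hc, ih, succ_nsmul]
  have hcomm : ∀ c ∈ A, ∀ c' ∈ A, c * c' = c' * c := by
    intro c hc c' hc'
    apply hfe
    intro v
    have h1 := hadd c hc c' hc' v
    have h2 := hadd c' hc' c hc v
    have h3 : (c * c') • v - v = (c' * c) • v - v := by rw [h1, h2, add_comm]
    exact sub_left_injective h3
  by_cases htf : ∀ a ∈ A, a ≠ 1 → ¬ IsOfFinOrder a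
  · exact Or.inl htf
  right
  push Not at htf
  obtain ⟨a₀, ha₀, ha₀1, hfin⟩ := htf
  have hm0 : orderOf a₀ ≠ 0 := (orderOf_pos_iff.mpr hfin).ne'
  have hm1 : orderOf a₀ ≠ 1 := by rwa [Ne, orderOf_eq_one_iff]
  obtain ⟨p, hp, hpm⟩ := Nat.exists_prime_and_dvd hm1
  obtain ⟨a, haA, hap⟩ : ∃ a ∈ A, orderOf a = p :=
    ⟨a₀ ^ (orderOf a₀ / p), A.pow_mem ha₀ _, orderOf_pow_orderOf_div hm0 hpm⟩
  have ha1 : a ≠ 1 := by
    intro h1
    rw [h1, orderOf_one] at hap
    exact hp.one_lt.ne' hap.symm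
  have hapow : a ^ p = 1 := by rw [← hap]; exact pow_orderOf_eq_one a
  refine ⟨p, hp, ?_, ?_⟩
  · exact ⟨⟨fun x y => Subtype.ext (hcomm x x.2 y y.2)⟩⟩
  · intro c hc
    have haK : ∀ v : V, a • (p • v) = p • v := by
      intro v
      have h1 := hpow a haA p v
      rw [hapow, one_smul, sub_self] at h1
      rw [smul_comm a p v]
      have h2 : p • (a • v) = p • (a • v - v) + p • v := by rw [← smul_add, sub_add_cancel]
      rw [h2, ← h1, zero_add]
    obtain ⟨b, hbB, hb1, hconj⟩ := hpair.cond_left a haA ha1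
    have hmem : b⁻¹ * c * b ∈ Cfsg.conjBy B a⁻¹ := by
      rw [← hconj]
      exact ⟨c, hc, by simp [MulAut.conj_apply]⟩
    obtain ⟨d, hdB, hd⟩ := hmem
    have hd' : a⁻¹ * d * a = b⁻¹ * c * b := by simpa [MulAut.conj_apply] using hd
    obtain ⟨d', hd'def⟩ : ∃ d', d' = b * d * b⁻¹ := ⟨_, rfl⟩
    have hd'B : d' ∈ B := by
      rw [hd'def]
      exact B.mul_mem (B.mul_mem hbB hdB) (B.inv_mem hbB)
    obtain ⟨k, hkdef⟩ : ∃ k, k = b * a * b⁻¹ := ⟨_, rfl⟩
    have hk : d' = k * c * k⁻¹ := by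
      have hc' : c = b * (a⁻¹ * d * a) * b⁻¹ := by rw [hd']; group
      rw [hd'def, hkdef, hc']; group
    have hkK : ∀ v : V, k • (p • v) = p • v := by
      intro v
      rw [hkdef, mul_smul, mul_smul, smul_comm b⁻¹ p v, haK, ← smul_comm b⁻¹ p v, smul_inv_smul]
    have hkK' : ∀ v : V, k⁻¹ • (p • v) = p • v := by
      intro v
      rw [inv_smul_eq_iff, hkK]
    have hagree : ∀ v : V, d' • (p • v) = c • (p • v) := by
      intro v
      rw [hk, mul_smul, mul_smul, hkK', smul_comm c p v, hkK]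
    have hd'pow : ∀ v : V, (d' ^ p) • v - v = p • (d' • v - v) := by
      intro v
      have e : d' ^ p = k * c ^ p * k⁻¹ := by rw [hk, conj_pow]
      have h1 := hpow c hc p (k⁻¹ • v)
      have h2 : c ^ p • k⁻¹ • v = p • (c • k⁻¹ • v - k⁻¹ • v) + k⁻¹ • v := by
        rw [← h1, sub_add_cancel]
      rw [e, mul_smul, mul_smul, h2, smul_add, smul_inv_smul, add_sub_cancel_right,
        smul_comm k p, smul_sub, smul_inv_smul, hk, mul_smul, mul_smul]
    have heq : d' ^ p = c ^ p := by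
      apply hfe
      intro v
      have h1 := hd'pow v
      have h2 := hpow c hc p v
      have h3 : p • (d' • v - v) = p • (c • v - v) := by
        rw [smul_sub, smul_sub, ← smul_comm d' p v, ← smul_comm c p v, hagree]
      have h4 : d' ^ p • v - v = c ^ p • v - v := by rw [h1, h2, h3]
      exact sub_left_injective h4
    exact hAB _ (A.pow_mem hc p) (heq ▸ B.pow_mem hd'B p)

end Cfsg.Agent.Helper19
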